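import Mathlib
import Cfsg.Prelude.Def_SolvableStructure
import Cfsg.Agent.S0004
import Cfsg.Agent.S0007
import Cfsg.Agent.Lead.SylowSystem2
import Cfsg.Agent.Lead.Coprime3

set_option autoImplicit false

namespace Cfsg.Agent.Helper6

open scoped Pointwise

universe u

/-- The index of a finite intersection of subgroups whose indices are powers of distinct primes
involves only those primes. -/
theorem index_inf_primes {X : Type u} [Group X] [Finite X] (F : Nat.Primes → Subgroup X)
    (hF : ∀ p : Nat.Primes, ∃ j : ℕ, (F p).index = (p : ℕ) ^ j) (T : Finset Nat.Primes) :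
    ∀ r : ℕ, r.Prime → r ∣ (T.inf F).index → ∃ p ∈ T, (p : ℕ) = r := by
  classical
  induction T using Finset.induction_on with
  | empty =>
    intro r hr hd
    rw [Finset.inf_empty, Subgroup.index_top] at hd
    exact absurd (Nat.dvd_one.mp hd) hr.one_lt.ne'
  | insert q T hq ih =>
    intro r hr hd
    rw [Finset.inf_insert] at hd
    obtain ⟨j, hj⟩ := hF q
    have hcop : (F q).index.Coprime (T.inf F).index := by
      apply Nat.coprime_of_dvd
      intro k hk hk1 hk2
      obtain ⟨p, hp, hpk⟩ := ih k hk hk2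
      rw [hj] at hk1
      have hkq : k = (q : ℕ) := (Nat.prime_dvd_prime_iff_eq hk q.2).mp (hk.dvd_of_dvd_pow hk1)
      have : p = q := Subtype.ext (hpk.trans hkq)
      exact hq (this ▸ hp)
    rw [Cfsg.Agent.Lead.index_inf_of_coprime _ _ hcop] at hd
    rcases (Nat.Prime.dvd_mul hr).mp hd with h1 | h1
    · rw [hj] at h1
      exact ⟨q, Finset.mem_insert_self q T,
        ((Nat.prime_dvd_prime_iff_eq hr q.2).mp (hr.dvd_of_dvd_pow h1)).symm⟩
    · obtain ⟨p, hp, hpr⟩ := ih r hr h1
      exact ⟨p, Finset.mem_insert_of_mem hp, hpr⟩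

theorem compl_card {G : Type u} [Group G] [Finite G] (K : Nat.Primes → Subgroup G)
    (hK : Cfsg.IsComplementSystem K) (p : Nat.Primes) :
    Nat.card (K p) * (p : ℕ) ^ (Nat.card G).factorization p = Nat.card G := by
  rw [← hK p]; exact Subgroup.card_mul_index (K p)

theorem compl_card_coprime {G : Type u} [Group G] [Finite G] (K : Nat.Primes → Subgroup G)
    (hK : Cfsg.IsComplementSystem K) (p : Nat.Primes) : Nat.Coprime (p : ℕ) (Nat.card (K p)) := by
  have h1 := compl_card K hK p
  have h2 : Nat.card G / (p : ℕ) ^ (Nat.card G).factorization p = Nat.card (K p) :=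
    Nat.div_eq_of_eq_mul_left (pow_pos p.2.pos _) h1.symm
  rw [← h2]
  exact Nat.coprime_ordCompl p.2 Nat.card_pos.ne'

theorem compl_conj_single {G : Type u} [Group G] [Finite G] [Group.IsSolvable G]
    (A B : Subgroup G) (p : Nat.Primes) (hA : A.index = (p : ℕ) ^ (Nat.card G).factorization p)
    (hB : B.index = (p : ℕ) ^ (Nat.card G).factorization p) :
    ∃ x : G, MulAut.conj x • A = B := by
  have h1 : Nat.card A * (p : ℕ) ^ (Nat.card G).factorization p = Nat.card G := by
    rw [← hA]; exact Subgroup.card_mul_index A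
  have h2 : Nat.card B * (p : ℕ) ^ (Nat.card G).factorization p = Nat.card G := by
    rw [← hB]; exact Subgroup.card_mul_index B
  have h3 : Nat.card G / (p : ℕ) ^ (Nat.card G).factorization p = Nat.card A :=
    Nat.div_eq_of_eq_mul_left (pow_pos p.2.pos _) h1.symm
  have hcop : (Nat.card A).Coprime ((p : ℕ) ^ (Nat.card G).factorization p) := by
    rw [← h3]
    exact (Nat.Coprime.pow_left _ (Nat.coprime_ordCompl p.2 Nat.card_pos.ne')).symm
  exact Cfsg.Agent.S0004.result (Nat.card A) ((p : ℕ) ^ (Nat.card G).factorization p) h1.symm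
    hcop A B rfl (Nat.eq_of_mul_eq_mul_right (pow_pos p.2.pos _) (h2.trans h1.symm))

theorem index_conj_smul {G : Type u} [Group G] (g : G) (H : Subgroup G) :
    (MulAut.conj g • H).index = H.index :=
  Subgroup.index_map_of_bijective (MulAut.conj g).bijective H

/-- Any two Hall complement systems of a finite solvable group are simultaneously conjugate. -/
theorem compl_system_conj {G : Type u} [Group G] [Finite G] [Group.IsSolvable G]
    (K L : Nat.Primes → Subgroup G) (hK : Cfsg.IsComplementSystem K)
    (hL : Cfsg.IsComplementSystem L) : ∃ g : G, ∀ p : Nat.Primes, MulAut.conj g • K p = L p := by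
  classical
  have key : ∀ T : Finset Nat.Primes, ∃ g : G, ∀ p ∈ T, MulAut.conj g • K p = L p := by
    intro T
    induction T using Finset.induction_on with
    | empty => exact ⟨1, fun p hp => absurd hp (Finset.notMem_empty p)⟩
    | insert q T hq ih =>
      obtain ⟨g, hg⟩ := ih
      obtain ⟨x, hx⟩ := compl_conj_single (MulAut.conj g • K q) (L q) q
        (by rw [index_conj_smul]; exact hK q) (hL q)
      have hcop : (L q).index.Coprime (T.inf L).index := by
        apply Nat.coprime_of_dvd
        intro k hk hk1 hk2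
        obtain ⟨p, hp, hpk⟩ := index_inf_primes L (fun p => ⟨_, hL p⟩) T k hk hk2
        rw [hL q] at hk1
        have hkq : k = (q : ℕ) := (Nat.prime_dvd_prime_iff_eq hk q.2).mp (hk.dvd_of_dvd_pow hk1)
        have : p = q := Subtype.ext (hpk.trans hkq)
        exact hq (this ▸ hp)
      obtain ⟨l, hl, m, hm, hxlm⟩ := (Cfsg.Agent.S0007.result (L q) (T.inf L) hcop).2 x
      refine ⟨m * g, ?_⟩
      intro p hp
      rw [map_mul, mul_smul]
      rcases Finset.mem_insert.mp hp with rfl | hpT
      · have hm' : m = l⁻¹ * x := by rw [hxlm]; group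
        rw [hm', map_mul, mul_smul, hx]
        exact (Cfsg.Agent.Lead.conj_smul_eq_self_iff _ _).mpr
          (Subgroup.le_normalizer (Subgroup.inv_mem _ hl))
      · rw [hg p hpT]
        exact (Cfsg.Agent.Lead.conj_smul_eq_self_iff _ _).mpr
          (Subgroup.le_normalizer ((Finset.inf_le hpT : T.inf L ≤ L p) hm))
  obtain ⟨g, hg⟩ := key (Finset.subtype Nat.Prime (Nat.card G).primeFactors)
  refine ⟨g, fun p => ?_⟩
  by_cases hp : (p : ℕ) ∣ Nat.card G
  · exact hg p (Finset.mem_subtype.mpr (Nat.mem_primeFactors.mpr ⟨p.2, hp, Nat.card_pos.ne'⟩))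
  · have hK1 : K p = ⊤ := by
      rw [← Subgroup.index_eq_one, hK p, Nat.factorization_eq_zero_of_not_dvd hp, pow_zero]
    have hL1 : L p = ⊤ := by
      rw [← Subgroup.index_eq_one, hL p, Nat.factorization_eq_zero_of_not_dvd hp, pow_zero]
    rw [hK1, hL1]
    exact (Cfsg.Agent.Lead.conj_smul_eq_self_iff _ _).mpr (Subgroup.mem_top _ |> fun h => by
      rw [Subgroup.normalizer_eq_top]; exact h)

end Cfsg.Agent.Helper6
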