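import Mathlib
import Cfsg.Agent.Helper6.ComplSystem

set_option autoImplicit false

namespace Cfsg.Agent.Helper6

open scoped Pointwise

universe u

theorem relIndex_dvd_index_of_le_normalizer {G : Type u} [Group G] [Finite G] (K D : Subgroup G)
    (h : D ≤ Subgroup.normalizer (K : Set G)) : K.relIndex D ∣ K.index := by
  have e0 : K.relIndex D = K.relIndex (D ⊔ K) := by
    letI := Subgroup.normal_subgroupOf_of_le_normalizer h
    letI := Subgroup.normal_subgroupOf_sup_of_le_normalizer h
    exact Nat.card_congr (QuotientGroup.quotientInfEquivProdNormalizerQuotient D K h).toEquiv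
  rw [e0]
  exact Subgroup.relIndex_dvd_index_of_le le_sup_right

theorem finset_inf_normal {X : Type*} [Group X] {ι : Type*} (F : ι → Subgroup X)
    (hF : ∀ i, (F i).Normal) (T : Finset ι) : (T.inf F).Normal := by
  classical
  induction T using Finset.induction_on with
  | empty => rw [Finset.inf_empty]; infer_instance
  | insert q T hq ih =>
    rw [Finset.inf_insert]
    haveI := hF q
    haveI := ih
    infer_instance

/-- The system normalizer of a Hall complement system is nilpotent. -/
theorem systemNormalizer_nilpotent {G : Type u} [Group G] [Finite G]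
    (K : Nat.Primes → Subgroup G) (hK : Cfsg.IsComplementSystem K) :
    Group.IsNilpotent (Cfsg.systemNormalizer K) := by
  classical
  obtain ⟨D, hDdef⟩ : ∃ D : Subgroup G, D = Cfsg.systemNormalizer K := ⟨_, rfl⟩
  rw [← hDdef]
  have hDN : ∀ p : Nat.Primes, D ≤ Subgroup.normalizer (K p : Set G) := by
    intro p; rw [hDdef]; exact iInf_le _ p
  have hFn : ∀ p : Nat.Primes, ((K p).subgroupOf D).Normal := fun p =>
    Subgroup.normal_subgroupOf_of_le_normalizer (hDN p)
  have hFi : ∀ p : Nat.Primes, ∃ j : ℕ, ((K p).subgroupOf D).index = (p : ℕ) ^ j := by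
    intro p
    have h1 : (K p).relIndex D ∣ (p : ℕ) ^ (Nat.card G).factorization p := by
      rw [← hK p]; exact relIndex_dvd_index_of_le_normalizer (K p) D (hDN p)
    obtain ⟨j, -, hj⟩ := (Nat.dvd_prime_pow p.2).mp h1
    exact ⟨j, hj⟩
  apply ((Group.isNilpotent_of_finite_tfae (G := D)).out 0 3).mpr
  intro r hr R'
  haveI := hr
  have hrp : r.Prime := hr.out
  obtain ⟨T, hTdef⟩ : ∃ T : Finset Nat.Primes,
      T = Finset.filter (fun p : Nat.Primes => (p : ℕ) ≠ r)
        (Finset.subtype Nat.Prime (Nat.card G).primeFactors) :=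
    ⟨_, rfl⟩
  obtain ⟨R, hRdef⟩ : ∃ R : Subgroup D, R = T.inf (fun p => (K p).subgroupOf D) := ⟨_, rfl⟩
  have hRn : R.Normal := by rw [hRdef]; exact finset_inf_normal _ hFn T
  have hRidx : ¬ r ∣ R.index := by
    intro hd
    rw [hRdef] at hd
    obtain ⟨p, hp, hpr⟩ := index_inf_primes (fun p => (K p).subgroupOf D) hFi T r hrp hd
    rw [hTdef] at hp
    exact (Finset.mem_filter.mp hp).2 hpr
  have hRp : IsPGroup r R := by
    have hS : ∃ k, Nat.card (T.inf K : Subgroup G) = r ^ k := by
      refine ⟨_, Nat.eq_prime_pow_of_unique_prime_dvd Nat.card_pos.ne' ?_⟩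
      intro d hd hdd
      by_contra hdr
      have hdG : d ∣ Nat.card G := dvd_trans hdd (Subgroup.card_subgroup_dvd_card _)
      have hmem : (⟨d, hd⟩ : Nat.Primes) ∈ T := by
        rw [hTdef]
        exact Finset.mem_filter.mpr ⟨Finset.mem_subtype.mpr
          (Nat.mem_primeFactors.mpr ⟨hd, hdG, Nat.card_pos.ne'⟩), hdr⟩
      have hle : (T.inf K : Subgroup G) ≤ K ⟨d, hd⟩ := Finset.inf_le hmem
      have h1 : d ∣ Nat.card (K ⟨d, hd⟩) := dvd_trans hdd (Subgroup.card_dvd_of_le hle)
      have h2 := compl_card_coprime K hK ⟨d, hd⟩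
      exact hd.one_lt.ne' (Nat.Coprime.eq_one_of_dvd h2 h1)
    obtain ⟨k, hk⟩ := hS
    have hSp : IsPGroup r (T.inf K : Subgroup G) := IsPGroup.of_card hk
    have hle : R.map D.subtype ≤ (T.inf K : Subgroup G) := by
      rintro _ ⟨y, hy, rfl⟩
      rw [hRdef] at hy
      rw [Finset.inf_eq_iInf, Subgroup.mem_iInf]
      intro p
      rw [Subgroup.mem_iInf]
      intro hp
      have h1 : y ∈ (K p).subgroupOf D :=
        (Finset.inf_le hp : T.inf (fun p => (K p).subgroupOf D) ≤ _) hy
      exact Subgroup.mem_subgroupOf.mp h1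
    have h3 : IsPGroup r (R.map D.subtype) := hSp.to_le hle
    have h4 := h3.comap_of_injective D.subtype D.subtype_injective
    rwa [Subgroup.comap_map_eq_self_of_injective D.subtype_injective] at h4
  obtain ⟨g, hg⟩ := MulAction.exists_smul_eq D (hRp.toSylow hRidx) R'
  haveI : ((hRp.toSylow hRidx : Sylow r D) : Subgroup D).Normal := by
    rw [IsPGroup.toSylow_coe]; exact hRn
  rw [Sylow.smul_eq_of_normal] at hg
  rw [← hg]; infer_instance

end Cfsg.Agent.Helper6
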