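import Mathlib
import Cfsg.Prelude.Def_SolvableStructure
import Cfsg.Agent.S0046
import Cfsg.Agent.Helper7.PRegClass
import Cfsg.Agent.Helper6.HallNilp
import Cfsg.Agent.Lead.Hall

set_option autoImplicit false

namespace Cfsg.Agent.Helper6

universe u

/-- A nontrivial finite solvable group has a normal subgroup of prime index. -/
theorem exists_normal_prime_index {G : Type*} [Group G] [Finite G] [Group.IsSolvable G]
    [Nontrivial G] : ∃ K : Subgroup G, K.Normal ∧ K.index.Prime := by
  obtain ⟨K, hKn, hKne, hKs⟩ := Cfsg.Agent.Helper7.exists_normal_simple_quotient G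
  haveI := hKn
  haveI := hKs
  refine ⟨K, hKn, ?_⟩
  have hsol : Group.IsSolvable (G ⧸ K) := inferInstance
  have hcomm : ∀ a b : G ⧸ K, a * b = b * a := IsSimpleGroup.comm_iff_isSolvable.mpr hsol
  letI : CommGroup (G ⧸ K) := { (inferInstance : Group (G ⧸ K)) with mul_comm := hcomm }
  rw [Subgroup.index_eq_card]
  exact IsSimpleGroup.prime_card

/-- A nilpotent subgroup containing a Sylow subgroup normalizes it. -/
theorem le_normalizer_sylow_of_nilpotent {G : Type*} [Group G] [Finite G] {p : ℕ}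
    [Fact p.Prime] (P : Sylow p G) (H : Subgroup G) (hPH : (P : Subgroup G) ≤ H)
    (hnil : Group.IsNilpotent H) : H ≤ Subgroup.normalizer ((P : Subgroup G) : Set G) := by
  have hP' : IsPGroup p ((P : Subgroup G).subgroupOf H) :=
    P.isPGroup'.comap_of_injective H.subtype H.subtype_injective
  have hidx : ¬ p ∣ ((P : Subgroup G).subgroupOf H).index := fun h =>
    P.not_dvd_index (dvd_trans h (Subgroup.relIndex_dvd_index_of_le hPH))
  have hn : ((hP'.toSylow hidx : Sylow p H) : Subgroup H).Normal := inferInstance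
  rw [IsPGroup.toSylow_coe] at hn
  exact (Subgroup.normal_subgroupOf_iff_le_normalizer hPH).mp hn

/-- In a nilpotent subgroup containing a Sylow `q`-subgroup `Q`, elements of order prime to `q`
commute with the elements of `Q`. -/
theorem commute_sylow_of_nilpotent {G : Type*} [Group G] [Finite G] {q : ℕ} [Fact q.Prime]
    (Q : Sylow q G) (H : Subgroup G) (hQH : (Q : Subgroup G) ≤ H) (hnil : Group.IsNilpotent H)
    (x : G) (hx : x ∈ H) (hcop : (orderOf x).Coprime q) (y : G) (hy : y ∈ (Q : Subgroup G)) :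
    x * y = y * x := by
  have hQ' : IsPGroup q ((Q : Subgroup G).subgroupOf H) :=
    Q.isPGroup'.comap_of_injective H.subtype H.subtype_injective
  have hidx : ¬ q ∣ ((Q : Subgroup G).subgroupOf H).index := fun h =>
    Q.not_dvd_index (dvd_trans h (Subgroup.relIndex_dvd_index_of_le hQH))
  have hcop' : (orderOf (⟨x, hx⟩ : H)).Coprime q := by
    rw [← Subgroup.orderOf_coe]; exact hcop
  have h1 := mem_centralizer_sylow_of_coprime_of_isNilpotent (hQ'.toSylow hidx) ⟨x, hx⟩ hcop'
  have h2 : (⟨y, hQH hy⟩ : H) ∈ ((hQ'.toSylow hidx : Sylow q H) : Subgroup H) := by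
    rw [IsPGroup.toSylow_coe, Subgroup.mem_subgroupOf]; exact hy
  have h3 := Subgroup.mem_centralizer_iff.mp h1 _ h2
  have h4 := congrArg (fun z : H => (z : G)) h3
  exact h4.symm

/-- Structure of minimal non-nilpotent groups (Schmidt). -/
theorem minNonNilp_structure {G : Type u} [Group G] [Finite G]
    (hG : Cfsg.IsMinimalNonNilpotent G) :
    ∃ p q : ℕ, p.Prime ∧ q.Prime ∧ p ≠ q ∧ ∃ (P : Sylow p G) (Q : Sylow q G) (x : G),
      (P : Subgroup G) = Subgroup.zpowers x ∧ (Q : Subgroup G).Normal ∧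
      (P : Subgroup G) ⊔ Q = ⊤ ∧ ¬ (P : Subgroup G).Normal := by
  classical
  obtain ⟨hnn, hprop⟩ := hG
  haveI hsol : Group.IsSolvable G := Cfsg.Agent.S0046.result (fun M hM => hprop M hM.1)
  haveI : Nontrivial G := by
    by_contra h
    rw [not_nontrivial_iff_subsingleton] at h
    exact hnn inferInstance
  obtain ⟨K, hKn, hKp⟩ := exists_normal_prime_index (G := G)
  haveI := hKn
  obtain ⟨p, hpdef⟩ : ∃ p, p = K.index := ⟨_, rfl⟩
  have hp : p.Prime := hpdef ▸ hKp
  have hKtop : K ≠ ⊤ := by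
    intro h; rw [h, Subgroup.index_top] at hKp; exact Nat.not_prime_one hKp
  haveI hKnil : Group.IsNilpotent K := hprop K hKtop
  have hnormal : ∀ (q : ℕ) [Fact q.Prime], q ≠ p → ∀ Q : Sylow q G,
      (Q : Subgroup G).Normal := by
    intro q _ hqp Q
    obtain ⟨Q₀⟩ : Nonempty (Sylow q K) := inferInstance
    haveI hQ₀n : (Q₀ : Subgroup K).Normal := inferInstance
    haveI hQ₀c : (Q₀ : Subgroup K).Characteristic := Sylow.characteristic_of_normal Q₀ hQ₀n
    have hn : ((Q₀ : Subgroup K).map K.subtype).Normal := inferInstance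
    have hpg : IsPGroup q ((Q₀ : Subgroup K).map K.subtype) := Q₀.isPGroup'.map _
    have hidx : ¬ q ∣ ((Q₀ : Subgroup K).map K.subtype).index := by
      rw [Subgroup.index_map_subtype, ← hpdef]
      intro hdvd
      rcases (Nat.Prime.dvd_mul Fact.out).mp hdvd with h1 | h1
      · exact Q₀.not_dvd_index h1
      · exact hqp ((Nat.prime_dvd_prime_iff_eq Fact.out hp).mp h1)
    obtain ⟨g, hg⟩ := MulAction.exists_smul_eq G (hpg.toSylow hidx) Q
    haveI : ((hpg.toSylow hidx : Sylow q G) : Subgroup G).Normal := by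
      rw [IsPGroup.toSylow_coe]; exact hn
    rw [Sylow.smul_eq_of_normal] at hg
    rw [← hg]; infer_instance
  haveI : Fact p.Prime := ⟨hp⟩
  have hPnn : ∀ P : Sylow p G, ¬ (P : Subgroup G).Normal := by
    intro P hPn
    apply hnn
    apply ((Group.isNilpotent_of_finite_tfae (G := G)).out 0 3).mpr
    intro r hr R
    by_cases hrp : r = p
    · subst hrp
      obtain ⟨g, hg⟩ := MulAction.exists_smul_eq G P R
      haveI := hPn
      rw [Sylow.smul_eq_of_normal] at hg
      rw [← hg]; exact hPn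
    · exact @hnormal r hr hrp R
  obtain ⟨P⟩ : Nonempty (Sylow p G) := inferInstance
  have hexq : ∃ (q : ℕ) (_ : Fact q.Prime), q ≠ p ∧
      ∃ Q : Sylow q G, (P : Subgroup G) ⊔ Q = ⊤ := by
    by_contra hcon
    push Not at hcon
    apply hPnn P
    rw [← Subgroup.normalizer_eq_top_iff, ← Subgroup.index_eq_one]
    by_contra hne
    obtain ⟨r, hr, hrd⟩ := Nat.exists_prime_and_dvd hne
    haveI hrF : Fact r.Prime := ⟨hr⟩
    by_cases hrp : r = p
    · subst hrp
      exact P.not_dvd_index (dvd_trans hrd (Subgroup.index_dvd_of_le Subgroup.le_normalizer))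
    · obtain ⟨Q⟩ : Nonempty (Sylow r G) := inferInstance
      have hQN : (Q : Subgroup G) ≤ Subgroup.normalizer ((P : Subgroup G) : Set G) := by
        have hne' := hcon r hrF hrp Q
        have hnil := hprop _ hne'
        exact le_sup_right.trans (le_normalizer_sylow_of_nilpotent P _ le_sup_left hnil)
      exact Q.not_dvd_index (dvd_trans hrd (Subgroup.index_dvd_of_le hQN))
  obtain ⟨q, hqF, hqp, Q, hsup⟩ := hexq
  haveI := hqF
  have hq : q.Prime := Fact.out
  have hQn : (Q : Subgroup G).Normal := hnormal q hqp Q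
  haveI := hQn
  have hdisj : (P : Subgroup G) ⊓ Q = ⊥ :=
    disjoint_iff.mp (IsPGroup.disjoint_of_ne p q (fun h => hqp h.symm) _ _ P.isPGroup' Q.isPGroup')
  have hexx : ∃ x ∈ (P : Subgroup G), Subgroup.zpowers x ⊔ (Q : Subgroup G) = ⊤ := by
    by_contra hcon
    push Not at hcon
    apply hPnn P
    rw [← Subgroup.normalizer_eq_top_iff, eq_top_iff, ← hsup]
    apply sup_le Subgroup.le_normalizer
    refine le_trans ?_ (Subgroup.centralizer_le_normalizer _)
    intro y hy
    rw [Subgroup.mem_centralizer_iff]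
    intro x hx
    have hne' := hcon x hx
    have hnil := hprop _ hne'
    have hcop : (orderOf x).Coprime q := by
      obtain ⟨k, hk⟩ := (IsPGroup.iff_orderOf.mp P.isPGroup') ⟨x, hx⟩
      rw [Subgroup.orderOf_mk] at hk
      rw [hk]
      exact Nat.Coprime.pow_left _ ((Nat.coprime_primes hp hq).mpr (fun h => hqp h.symm))
    exact commute_sylow_of_nilpotent Q _ le_sup_right hnil x
      (Subgroup.mem_sup_left (Subgroup.mem_zpowers x)) hcop y hy
  obtain ⟨x, hxP, hxsup⟩ := hexx
  have hzP : Subgroup.zpowers x ≤ (P : Subgroup G) := by rw [Subgroup.zpowers_le]; exact hxP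
  have hPeq : (P : Subgroup G) = Subgroup.zpowers x := by
    symm
    apply Subgroup.eq_of_le_of_card_ge hzP
    have h1 := Cfsg.Agent.Lead.card_sup_of_inf_eq_bot (Subgroup.zpowers x) (Q : Subgroup G)
      (by rw [eq_bot_iff, ← hdisj]; exact inf_le_inf_right _ hzP)
    have h2 := Cfsg.Agent.Lead.card_sup_of_inf_eq_bot (P : Subgroup G) (Q : Subgroup G) hdisj
    rw [hxsup] at h1
    rw [hsup] at h2
    have h3 : Nat.card (Subgroup.zpowers x) * Nat.card (Q : Subgroup G) =
        Nat.card (P : Subgroup G) * Nat.card (Q : Subgroup G) := h1.symm.trans h2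
    exact (Nat.eq_of_mul_eq_mul_right Nat.card_pos h3).ge
  exact ⟨p, q, hp, hq, fun h => hqp h.symm, P, Q, x, hPeq, hQn, hsup, hPnn P⟩

end Cfsg.Agent.Helper6
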