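import Mathlib
import Cfsg.Agent.Helper6.ComplSystem2
import Cfsg.Agent.Helper6.MinNonNilp
import Cfsg.Agent.Helper3.SchurZ
import Cfsg.Agent.Helper4.PPrimeP
import Cfsg.Agent.Lead.Coprime3
import Cfsg.Agent.S0004

set_option autoImplicit false

namespace Cfsg.Agent.Helper6

open scoped Pointwise

universe u

/-- A nontrivial normal subgroup `N` of a finite solvable group contains a normal subgroup `M` of
`G`, `M < N`, such that `N / M` has prime exponent `r`. -/
theorem exists_normal_lt_pquot {G : Type u} [Group G] [Finite G] [Group.IsSolvable G]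
    (N : Subgroup G) [hNn : N.Normal] (hN : N ≠ ⊥) :
    ∃ (M : Subgroup G) (r : ℕ), M.Normal ∧ M ≤ N ∧ M ≠ N ∧ r.Prime ∧ ∀ n ∈ N, n ^ r ∈ M := by
  haveI : Nontrivial N := (Subgroup.nontrivial_iff_ne_bot N).mpr hN
  obtain ⟨L, hLn, hLi⟩ := exists_normal_prime_index (G := N)
  haveI := hLn
  have hpow : ∀ y : N, y ^ L.index ∈ L := by
    intro y
    rw [← QuotientGroup.eq_one_iff, QuotientGroup.mk_pow]
    have : Nat.card (N ⧸ L) = L.index := rfl
    rw [← this]
    exact pow_card_eq_one'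
  refine ⟨(L.map N.subtype).normalCore, L.index, inferInstance, ?_, ?_, hLi, ?_⟩
  · exact le_trans (Subgroup.normalCore_le _) (Subgroup.map_subtype_le L)
  · intro h
    have h1 : N ≤ L.map N.subtype := by
      calc N = (L.map N.subtype).normalCore := h.symm
        _ ≤ _ := Subgroup.normalCore_le _
    have h2 : L = ⊤ := by
      rw [eq_top_iff]
      intro y _
      obtain ⟨z, hz, hzy⟩ := h1 y.2
      have : z = y := Subtype.ext hzy
      rwa [← this]
    rw [h2, Subgroup.index_top] at hLi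
    exact Nat.not_prime_one hLi
  · intro n hn b
    have hb : b * n * b⁻¹ ∈ N := hNn.conj_mem n hn b
    have h1 := hpow ⟨b * n * b⁻¹, hb⟩
    have e : b * n ^ L.index * b⁻¹ = (b * n * b⁻¹) ^ L.index := by
      rw [conj_pow]
    rw [e]
    exact ⟨⟨b * n * b⁻¹, hb⟩ ^ L.index, h1, by simp⟩

theorem sup_le_sup_of_pquot {G : Type u} [Group G] [Finite G] (H M N : Subgroup G) [N.Normal]
    (hM : M.Normal) (hMN : M ≤ N) (r q : ℕ) (hr : r.Prime) (hq : q.Prime) (hqr : q ≠ r) (a : ℕ)
    (hH : H.index = q ^ a) (hpow : ∀ n ∈ N, n ^ r ∈ M) : H ⊔ N ≤ H ⊔ M := by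
  haveI := hM
  haveI : Fact r.Prime := ⟨hr⟩
  have hP : IsPGroup r (N ⧸ M.subgroupOf N) := by
    intro g
    induction g using QuotientGroup.induction_on with
    | H y =>
      refine ⟨1, ?_⟩
      rw [pow_one, ← QuotientGroup.mk_pow, QuotientGroup.eq_one_iff, Subgroup.mem_subgroupOf]
      exact hpow y y.2
  obtain ⟨k, hk⟩ := IsPGroup.iff_card.mp hP
  have h1 : M.relIndex N = r ^ k := hk
  have h2 : (H ⊔ M).relIndex ((H ⊔ M) ⊔ N) = (H ⊔ M).relIndex N :=
    Cfsg.Agent.Helper4.relIndex_sup_of_normal_right (H ⊔ M) N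
  have h3 : (H ⊔ M).relIndex N ∣ M.relIndex N := Subgroup.relIndex_dvd_of_le_left N le_sup_right
  have h4 : (H ⊔ M).relIndex ((H ⊔ M) ⊔ N) ∣ (H ⊔ M).index :=
    Subgroup.relIndex_dvd_index_of_le le_sup_left
  have h5 : (H ⊔ M).index ∣ H.index := Subgroup.index_dvd_of_le le_sup_left
  have h6 : (H ⊔ M).relIndex ((H ⊔ M) ⊔ N) = 1 := by
    apply Nat.eq_one_of_dvd_coprimes (a := q ^ a) (b := r ^ k)
    · exact Nat.Coprime.pow _ _ ((Nat.coprime_primes hq hr).mpr hqr)
    · rw [← hH]; exact dvd_trans h4 h5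
    · rw [← h1, h2]; exact h3
  have h7 := Subgroup.relIndex_eq_one.mp h6
  exact le_trans (sup_le (le_trans le_sup_left le_sup_left) le_sup_right) h7

theorem exists_mul_mem_normalizer_of_sup {G : Type u} [Group G] [Finite G] [Group.IsSolvable G]
    (H N : Subgroup G) [hNn : N.Normal] (hcop : (Nat.card H).Coprime H.index) (x : G)
    (hx : x ∈ Subgroup.normalizer ((H ⊔ N : Subgroup G) : Set G)) :
    ∃ n ∈ N, n * x ∈ Subgroup.normalizer (H : Set G) := by
  obtain ⟨L, hL⟩ : ∃ L : Subgroup G, L = H ⊔ N := ⟨_, rfl⟩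
  have hHL : H ≤ L := hL ▸ le_sup_left
  have hxL : MulAut.conj x • L = L := by
    rw [hL]; exact (Cfsg.Agent.Lead.conj_smul_eq_self_iff x _).mpr hx
  have hYL : H.map (MulAut.conj x).toMonoidHom ≤ L := by
    have : L.map (MulAut.conj x).toMonoidHom = L := hxL
    rw [← this]; exact Subgroup.map_mono hHL
  have hcardL : Nat.card L = Nat.card H * H.relIndex L := by
    have := Subgroup.relIndex_mul_relIndex (⊥ : Subgroup G) H L bot_le hHL
    rw [Subgroup.relIndex_bot_left, Subgroup.relIndex_bot_left] at this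
    exact this.symm
  have hcop' : (Nat.card H).Coprime (H.relIndex L) :=
    Nat.Coprime.coprime_dvd_right (Subgroup.relIndex_dvd_index_of_le hHL) hcop
  have hc1 : Nat.card (H.subgroupOf L) = Nat.card H :=
    Cfsg.Agent.Helper3.card_subgroupOf_of_le hHL
  have hc2 : Nat.card ((H.map (MulAut.conj x).toMonoidHom).subgroupOf L) = Nat.card H := by
    rw [Cfsg.Agent.Helper3.card_subgroupOf_of_le hYL]
    exact Nat.card_congr (H.equivMapOfInjective _ (MulAut.conj x).injective).symm.toEquiv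
  obtain ⟨l, hl⟩ := Cfsg.Agent.S0004.result (G := L) (Nat.card H) (H.relIndex L) hcardL hcop'
    (H.subgroupOf L) ((H.map (MulAut.conj x).toMonoidHom).subgroupOf L) hc1 hc2
  have hl' : H.map (MulAut.conj (l : G)).toMonoidHom = H.map (MulAut.conj x).toMonoidHom :=
    Cfsg.Agent.Helper3.conj_of_subgroupOf L H _ hHL hYL l hl
  have hlm : (l : G) ∈ N ⊔ H := by rw [sup_comm, ← hL]; exact l.2
  obtain ⟨n, hn, k, hk, hnk⟩ := Subgroup.mem_sup_of_normal_left.mp hlm
  refine ⟨n⁻¹, N.inv_mem hn, ?_⟩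
  rw [Subgroup.mem_normalizer_iff]
  intro y
  have key : ∀ z : G, z ∈ H.map (MulAut.conj x).toMonoidHom ↔ n⁻¹ * z * n ∈ H := by
    intro z
    rw [← hl', Cfsg.Agent.Helper5.mem_conj_iff, ← hnk]
    constructor
    · intro h
      have := H.mul_mem (H.mul_mem hk h) (H.inv_mem hk)
      convert this using 1; group
    · intro h
      have := H.mul_mem (H.mul_mem (H.inv_mem hk) h) hk
      convert this using 1; group
  have e : n⁻¹ * x * y * (n⁻¹ * x)⁻¹ = n⁻¹ * (x * y * x⁻¹) * n := by group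
  rw [e, ← key, Cfsg.Agent.Helper5.mem_conj_iff]
  have e2 : x⁻¹ * (x * y * x⁻¹) * x = y := by group
  rw [e2]

/-- The system normalizer covers: if `x` normalizes every `K p ⊔ N` then `x ∈ D N`. -/
theorem sysnorm_cover {G : Type u} [Group G] [Finite G] [Group.IsSolvable G]
    (K : Nat.Primes → Subgroup G) (hK : Cfsg.IsComplementSystem K) :
    ∀ k : ℕ, ∀ N : Subgroup G, N.Normal → Nat.card N = k → ∀ x : G,
      (∀ p : Nat.Primes, x ∈ Subgroup.normalizer ((K p ⊔ N : Subgroup G) : Set G)) →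
      ∃ d ∈ Cfsg.systemNormalizer K, ∃ n ∈ N, x = d * n := by
  intro k
  induction k using Nat.strong_induction_on with
  | _ k ih =>
    intro N hNn hNk x hx
    haveI := hNn
    by_cases hN : N = ⊥
    · refine ⟨x, ?_, 1, N.one_mem, (mul_one x).symm⟩
      unfold Cfsg.systemNormalizer
      rw [Subgroup.mem_iInf]
      intro p
      have := hx p
      rwa [hN, sup_bot_eq] at this
    · obtain ⟨M, r, hMn, hMN, hMne, hr, hpow⟩ := exists_normal_lt_pquot N hN
      haveI := hMn
      have hcopr := compl_card_coprime K hK ⟨r, hr⟩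
      have hcop : (Nat.card (K ⟨r, hr⟩)).Coprime (K ⟨r, hr⟩).index := by
        rw [hK ⟨r, hr⟩]
        exact (Nat.Coprime.pow_left _ hcopr).symm
      obtain ⟨n, hn, hnx⟩ := exists_mul_mem_normalizer_of_sup (K ⟨r, hr⟩) N hcop x (hx ⟨r, hr⟩)
      have hy : ∀ p : Nat.Primes,
          n * x ∈ Subgroup.normalizer ((K p ⊔ M : Subgroup G) : Set G) := by
        intro p
        by_cases hp : (p : ℕ) = r
        · have hp' : p = ⟨r, hr⟩ := Subtype.ext hp
          rw [hp']
          rw [← Cfsg.Agent.Lead.conj_smul_eq_self_iff, Subgroup.smul_sup,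
            (Cfsg.Agent.Lead.conj_smul_eq_self_iff _ _).mpr hnx, Subgroup.Normal.conj_smul_eq_self]
        · have e : K p ⊔ M = K p ⊔ N :=
            le_antisymm (sup_le_sup_left hMN _)
              (sup_le_sup_of_pquot (K p) M N hMn hMN r p hr p.2 hp _ (hK p) hpow)
          rw [e]
          exact Subgroup.mul_mem _ (Subgroup.le_normalizer (le_sup_right (a := K p) hn)) (hx p)
      have hlt : Nat.card M < k := by
        rw [← hNk]
        exact lt_of_le_of_ne (Subgroup.card_le_of_le hMN)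
          (fun h => hMne (Subgroup.eq_of_le_of_card_ge hMN h.ge))
      obtain ⟨d, hd, m, hm, hdm⟩ := ih (Nat.card M) hlt M hMn rfl (n * x) hy
      refine ⟨d, hd, d⁻¹ * n⁻¹ * d * m, ?_, ?_⟩
      · have h1 := hNn.conj_mem n⁻¹ (N.inv_mem hn) d⁻¹
        rw [inv_inv] at h1
        exact N.mul_mem h1 (hMN hm)
      · have : x = n⁻¹ * (d * m) := by rw [← hdm]; group
        rw [this]; group

end Cfsg.Agent.Helper6
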