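import Mathlib
import Cfsg.Agent.Helper6.SysNorm
import Cfsg.Agent.S0065

set_option autoImplicit false

namespace Cfsg.Agent.Helper6

open scoped Pointwise

universe u

theorem sup_le_sup_of_coprime_relIndex {G : Type u} [Group G] [Finite G] (H M N : Subgroup G)
    [N.Normal] (hcop : Nat.Coprime H.index (M.relIndex N)) : H ⊔ N ≤ H ⊔ M := by
  have h2 : (H ⊔ M).relIndex ((H ⊔ M) ⊔ N) = (H ⊔ M).relIndex N :=
    Cfsg.Agent.Helper4.relIndex_sup_of_normal_right (H ⊔ M) N
  have h3 : (H ⊔ M).relIndex N ∣ M.relIndex N := Subgroup.relIndex_dvd_of_le_left N le_sup_right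
  have h4 : (H ⊔ M).relIndex ((H ⊔ M) ⊔ N) ∣ (H ⊔ M).index :=
    Subgroup.relIndex_dvd_index_of_le le_sup_left
  have h5 : (H ⊔ M).index ∣ H.index := Subgroup.index_dvd_of_le le_sup_left
  have h6 : (H ⊔ M).relIndex ((H ⊔ M) ⊔ N) = 1 :=
    Nat.eq_one_of_dvd_coprimes hcop (dvd_trans h4 h5) (by rw [h2]; exact h3)
  have h7 := Subgroup.relIndex_eq_one.mp h6
  exact le_trans (sup_le (le_trans le_sup_left le_sup_left) le_sup_right) h7

/-- A system normalizer avoids a non-central minimal normal subgroup. -/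
theorem sysnorm_avoid_min {Q : Type u} [Group Q] [Finite Q] [Group.IsSolvable Q]
    (K : Nat.Primes → Subgroup Q) (hK : Cfsg.IsComplementSystem K)
    (V : Subgroup Q) [hVn : V.Normal] (hV : V ≠ ⊥)
    (hmin : ∀ N : Subgroup Q, N.Normal → N ≤ V → N = ⊥ ∨ N = V)
    (hnc : ¬ V ≤ Subgroup.center Q) : V ⊓ Cfsg.systemNormalizer K = ⊥ := by
  classical
  obtain ⟨M, r, hMn, hMV, hMne, hr, hpow⟩ := exists_normal_lt_pquot V hV
  have hM : M = ⊥ := (hmin M hMn hMV).resolve_right hMne
  have hexp : ∀ v ∈ V, v ^ r = 1 := by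
    intro v hv
    have := hpow v hv
    rwa [hM, Subgroup.mem_bot] at this
  obtain ⟨C, hCdef⟩ : ∃ C : Subgroup Q, C = Subgroup.centralizer (V : Set Q) := ⟨_, rfl⟩
  haveI hCn : C.Normal := by rw [hCdef]; infer_instance
  have hCtop : C ≠ ⊤ := by
    intro h
    apply hnc
    intro v hv
    rw [Subgroup.mem_center_iff]
    intro g
    have hg : g ∈ C := by rw [h]; trivial
    rw [hCdef, Subgroup.mem_centralizer_iff] at hg
    exact (hg v hv).symm
  haveI : Nontrivial (Q ⧸ C) := by
    rw [← Finite.one_lt_card_iff_nontrivial]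
    have h1 : C.index ≠ 1 := fun h => hCtop (Subgroup.index_eq_one.mp h)
    have h0 : C.index ≠ 0 := Subgroup.index_ne_zero_of_finite
    show 1 < C.index
    omega
  obtain ⟨q, hq, Rb, hRbn, hRbne, hRbp⟩ :=
    Cfsg.Agent.Helper3.exists_normal_pgroup_of_solvable (Q ⧸ C)
  haveI := hRbn
  haveI : Fact q.Prime := ⟨hq⟩
  obtain ⟨R, hRdef⟩ : ∃ R : Subgroup Q, R = Rb.comap (QuotientGroup.mk' C) := ⟨_, rfl⟩
  haveI hRn : R.Normal := by rw [hRdef]; infer_instance
  have hRC : ¬ R ≤ C := by
    intro h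
    apply hRbne
    rw [eq_bot_iff]
    intro y hy
    obtain ⟨g, rfl⟩ := QuotientGroup.mk'_surjective C y
    have hg : g ∈ R := by rw [hRdef]; exact hy
    rw [Subgroup.mem_bot]
    exact (QuotientGroup.eq_one_iff g).mpr (h hg)
  obtain ⟨k, hk⟩ := IsPGroup.iff_card.mp hRbp
  have hrel : C.relIndex R = q ^ k := by
    have e0 := Subgroup.relIndex_comap (⊥ : Subgroup (Q ⧸ C)) (QuotientGroup.mk' C) R
    rw [MonoidHom.comap_bot, QuotientGroup.ker_mk'] at e0
    have e2 : R.map (QuotientGroup.mk' C) = Rb := by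
      rw [hRdef]
      exact Subgroup.map_comap_eq_self_of_surjective (QuotientGroup.mk'_surjective C) Rb
    rw [e0, e2, Subgroup.relIndex_bot_left, hk]
  have claim : ∀ H : Subgroup Q, Nat.Coprime H.index q → ∀ v ∈ V,
      (∀ h ∈ H, h * v = v * h) → v = 1 := by
    intro H hHq v hv hcomm
    have hle : H ⊔ R ≤ H ⊔ C :=
      sup_le_sup_of_coprime_relIndex H C R (by rw [hrel]; exact Nat.Coprime.pow_right _ hHq)
    have hHC : H ⊔ C ≤ Subgroup.centralizer {v} := by
      apply sup_le
      · intro h hh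
        rw [Subgroup.mem_centralizer_iff]
        intro y hy
        rw [Set.mem_singleton_iff] at hy
        rw [hy]; exact (hcomm h hh).symm
      · intro c hc
        rw [hCdef, Subgroup.mem_centralizer_iff] at hc
        rw [Subgroup.mem_centralizer_iff]
        intro y hy
        rw [Set.mem_singleton_iff] at hy
        rw [hy]; exact hc v hv
    have hvR : v ∈ V ⊓ Subgroup.centralizer (R : Set Q) := by
      refine Subgroup.mem_inf.mpr ⟨hv, ?_⟩
      rw [Subgroup.mem_centralizer_iff]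
      intro g hg
      have := hHC (hle (le_sup_right (a := H) hg))
      rw [Subgroup.mem_centralizer_iff] at this
      exact (this v (Set.mem_singleton v)).symm
    rcases hmin (V ⊓ Subgroup.centralizer (R : Set Q)) inferInstance inf_le_left with h | h
    · rw [h, Subgroup.mem_bot] at hvR; exact hvR
    · exfalso
      apply hRC
      intro g hg
      rw [hCdef, Subgroup.mem_centralizer_iff]
      intro w hw
      have hw' : w ∈ V ⊓ Subgroup.centralizer (R : Set Q) := by rw [h]; exact hw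
      have := (Subgroup.mem_inf.mp hw').2
      rw [Subgroup.mem_centralizer_iff] at this
      exact (this g hg).symm
  rw [eq_bot_iff]
  intro v hv
  rw [Subgroup.mem_bot]
  obtain ⟨hvV, hvD⟩ := hv
  by_cases hqr : q = r
  · exfalso
    rw [← hqr] at hexp
    obtain ⟨P⟩ : Nonempty (Sylow q Q) := inferInstance
    have hVp : IsPGroup q V := by
      intro w
      refine ⟨1, ?_⟩
      rw [pow_one]
      exact Subtype.ext (hexp w w.2)
    have hVP : V ≤ P := hVp.le_sylow_of_normal P
    haveI : Group.IsNilpotent P := P.isPGroup'.isNilpotent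
    have hne : V.subgroupOf P ≠ ⊥ := by
      intro h
      apply hV
      rw [eq_bot_iff]
      intro w hw
      have : (⟨w, hVP hw⟩ : P) ∈ V.subgroupOf P := Subgroup.mem_subgroupOf.mpr hw
      rw [h, Subgroup.mem_bot] at this
      rw [Subgroup.mem_bot]
      exact congrArg Subtype.val this
    have h65 := Cfsg.Agent.S0065.result (V.subgroupOf P) hne
    obtain ⟨z, hz, hz1⟩ : ∃ z ∈ V.subgroupOf P ⊓ Subgroup.center P, z ≠ 1 := by
      by_contra hcon
      push Not at hcon
      exact h65 (eq_bot_iff.mpr (fun z hz => Subgroup.mem_bot.mpr (hcon z hz)))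
    have hzV : (z : Q) ∈ V := Subgroup.mem_subgroupOf.mp hz.1
    have hzc : ∀ h ∈ (P : Subgroup Q), h * (z : Q) = (z : Q) * h := by
      intro h hh
      have := (Subgroup.mem_center_iff.mp hz.2) ⟨h, hh⟩
      exact congrArg Subtype.val this
    have hidx : Nat.Coprime (P : Subgroup Q).index q :=
      ((Nat.Prime.coprime_iff_not_dvd hq).mpr P.not_dvd_index).symm
    have := claim P hidx z hzV hzc
    exact hz1 (Subtype.ext this)
  · have hidx : Nat.Coprime (K ⟨r, hr⟩).index q := by
      rw [hK ⟨r, hr⟩]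
      exact Nat.Coprime.pow_left _ ((Nat.coprime_primes hr hq).mpr (Ne.symm hqr))
    apply claim (K ⟨r, hr⟩) hidx v hvV
    intro h hh
    have hvN : v ∈ Subgroup.normalizer ((K ⟨r, hr⟩ : Subgroup Q) : Set Q) := by
      unfold Cfsg.systemNormalizer at hvD
      exact (Subgroup.mem_iInf.mp hvD) ⟨r, hr⟩
    have h1 : v * h * v⁻¹ ∈ K ⟨r, hr⟩ := (Subgroup.mem_normalizer_iff.mp hvN h).mp hh
    have h2 : v * h * v⁻¹ * h⁻¹ ∈ K ⟨r, hr⟩ := Subgroup.mul_mem _ h1 (Subgroup.inv_mem _ hh)
    have h3 : v * h * v⁻¹ * h⁻¹ ∈ V := by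
      have := hVn.conj_mem v⁻¹ (V.inv_mem hvV) h
      have h4 := V.mul_mem hvV this
      convert h4 using 1; group
    have h5 : v * h * v⁻¹ * h⁻¹ = 1 := by
      have hwr := hexp _ h3
      have ho1 : orderOf (v * h * v⁻¹ * h⁻¹) ∣ r := orderOf_dvd_of_pow_eq_one hwr
      have ho2 : orderOf (v * h * v⁻¹ * h⁻¹) ∣ Nat.card (K ⟨r, hr⟩) := by
        have := orderOf_dvd_natCard (⟨v * h * v⁻¹ * h⁻¹, h2⟩ : K ⟨r, hr⟩)
        rwa [← Subgroup.orderOf_coe] at this
      have hc := compl_card_coprime K hK ⟨r, hr⟩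
      have : orderOf (v * h * v⁻¹ * h⁻¹) = 1 := Nat.eq_one_of_dvd_coprimes hc ho1 ho2
      exact orderOf_eq_one_iff.mp this
    have h6 : v * h = h * v := by
      have := congrArg (fun t => t * h * v) h5
      simpa [mul_assoc] using this
    exact h6.symm

end Cfsg.Agent.Helper6
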