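import Mathlib
import Cfsg.Agent.Helper6.SysNorm2
import Cfsg.Agent.Helper6.HallNilp
import Cfsg.Agent.S0045
import Cfsg.Agent.S0545
import Cfsg.Agent.S0005
import Cfsg.Agent.Helper7.Hypercenter
import Cfsg.Agent.Helper3.Stable
import Cfsg.Agent.Helper3.CN
import Cfsg.Agent.Helper1.Supersolvable2

set_option autoImplicit false

namespace Cfsg.Agent.Helper6

open scoped Pointwise

universe u

/-- A nilpotent self-normalizing subgroup `C` absorbs every element of a normal `r`-subgroup that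
centralizes the `r'`-part `Q` of `C`. -/
theorem carter_absorb {G : Type u} [Group G] [Finite G] (r : ℕ) [Fact r.Prime]
    (C N Q : Subgroup G) [hNn : N.Normal] (hCnil : Group.IsNilpotent C)
    (hCself : Subgroup.normalizer (C : Set G) = C)
    (hN : IsPGroup r N) (hQC : Q ≤ C)
    (hQ1 : ∀ x ∈ C, (orderOf x).Coprime r → x ∈ Q)
    (hQ2 : ∀ x ∈ Q, (orderOf x).Coprime r)
    (n : G) (hn : n ∈ N) (hnQ : ∀ x ∈ Q, n * x = x * n) : n ∈ C := by
  classical
  haveI := hCnil
  have hr : r.Prime := Fact.out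
  obtain ⟨P⟩ : Nonempty (Sylow r C) := inferInstance
  obtain ⟨Cr, hCrdef⟩ : ∃ Cr : Subgroup G, Cr = (P : Subgroup C).map C.subtype := ⟨_, rfl⟩
  have hCrC : Cr ≤ C := by rw [hCrdef]; exact Subgroup.map_subtype_le _
  have hCrp : IsPGroup r Cr := by rw [hCrdef]; exact P.isPGroup'.map _
  have hCr1 : ∀ x ∈ C, ∀ k : ℕ, x ^ (r ^ k) = 1 → x ∈ Cr := by
    intro x hx k hk
    have ho : orderOf (⟨x, hx⟩ : C) ∣ r ^ k := by
      apply orderOf_dvd_of_pow_eq_one
      exact Subtype.ext hk
    obtain ⟨b, -, hb⟩ := (Nat.dvd_prime_pow hr).mp ho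
    have := Cfsg.Agent.Helper3.mem_sylow_of_nilpotent hCnil r P ⟨x, hx⟩ b hb
    rw [hCrdef]
    exact ⟨⟨x, hx⟩, this, rfl⟩
  have hCQ : ∀ c ∈ C, ∀ x ∈ Q, c * x * c⁻¹ ∈ Q := by
    intro c hc x hx
    apply hQ1 _ (C.mul_mem (C.mul_mem hc (hQC hx)) (C.inv_mem hc))
    have := MulEquiv.orderOf_eq (MulAut.conj c) x
    rw [MulAut.conj_apply] at this
    rw [this]; exact hQ2 x hx
  obtain ⟨R, hRdef⟩ : ∃ R : Subgroup G, R = N ⊓ Subgroup.centralizer (Q : Set G) := ⟨_, rfl⟩
  have hRp : IsPGroup r R := by rw [hRdef]; exact hN.to_le inf_le_left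
  have hnR : n ∈ R := by
    rw [hRdef]; refine Subgroup.mem_inf.mpr ⟨hn, ?_⟩
    rw [Subgroup.mem_centralizer_iff]; intro x hx; exact (hnQ x hx).symm
  have hCR : C ≤ Subgroup.normalizer (R : Set G) := by
    intro c hc
    apply Cfsg.Agent.Lead.mem_normalizer_of_conj_mem R c
    intro y hy
    rw [hRdef] at hy ⊢
    obtain ⟨hyN, hyQ⟩ := Subgroup.mem_inf.mp hy
    refine Subgroup.mem_inf.mpr ⟨hNn.conj_mem y hyN c, ?_⟩
    rw [Subgroup.mem_centralizer_iff] at hyQ ⊢
    intro x hx
    have hx' : c⁻¹ * x * c ∈ Q := by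
      have := hCQ c⁻¹ (C.inv_mem hc) x hx
      rwa [inv_inv] at this
    have h1 := hyQ _ hx'
    calc x * (c * y * c⁻¹) = c * ((c⁻¹ * x * c) * y) * c⁻¹ := by group
      _ = c * (y * (c⁻¹ * x * c)) * c⁻¹ := by rw [h1]
      _ = c * y * c⁻¹ * x := by group
  obtain ⟨T, hTdef⟩ : ∃ T : Subgroup G, T = Cr ⊔ R := ⟨_, rfl⟩
  have hTp : IsPGroup r T := by
    rw [hTdef]; exact hCrp.to_sup_of_normal_right' hRp (le_trans hCrC hCR)
  have hCrT : Cr ≤ T := by rw [hTdef]; exact le_sup_left
  have hRT : R ≤ T := by rw [hTdef]; exact le_sup_right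
  have hTQ : T ≤ Subgroup.centralizer (Q : Set G) := by
    rw [hTdef]
    apply sup_le
    · intro u hu
      rw [Subgroup.mem_centralizer_iff]
      intro x hx
      obtain ⟨k, hk⟩ := hCrp ⟨u, hu⟩
      have huk : (⟨u, hCrC hu⟩ : C) ^ (r ^ k) = 1 := by
        apply Subtype.ext
        have := congrArg Subtype.val hk
        simpa using this
      have hxo : (orderOf (⟨x, hQC hx⟩ : C)).Coprime r := by
        rw [Subgroup.orderOf_mk]; exact hQ2 x hx
      have := Cfsg.Agent.Helper7.commute_of_nilpotent_coprime r (⟨u, hCrC hu⟩ : C)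
        ⟨x, hQC hx⟩ k huk hxo
      exact (congrArg Subtype.val this).symm
    · rw [hRdef]; exact inf_le_right
  have hEq : Cr = T := by
    by_contra hne
    haveI : Group.IsNilpotent T := hTp.isNilpotent
    obtain ⟨t, htT, htN, htCr⟩ :=
      Cfsg.Agent.Helper3.exists_mem_normalizer_not_mem_of_nilpotent T Cr inferInstance hCrT hne
    apply htCr
    have htQ := hTQ htT
    rw [Subgroup.mem_centralizer_iff] at htQ
    have htC : t ∈ Subgroup.normalizer (C : Set G) := by
      apply Cfsg.Agent.Lead.mem_normalizer_of_conj_mem C t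
      intro c hc
      apply mem_of_primary_powers_mem C (orderOf (t * c * t⁻¹)) (t * c * t⁻¹) rfl (orderOf_pos _)
      intro q k hq hj
      obtain ⟨j, hj⟩ := hj
      rw [conj_pow] at hj ⊢
      have ho : orderOf (c ^ k) = q ^ j := by
        have := MulEquiv.orderOf_eq (MulAut.conj t) (c ^ k)
        rw [MulAut.conj_apply] at this
        rw [← this]; exact hj
      have hck : c ^ k ∈ C := C.pow_mem hc k
      by_cases hqr : q = r
      · have h1 : c ^ k ∈ Cr := by
          apply hCr1 _ hck j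
          rw [← hqr, ← ho]; exact pow_orderOf_eq_one _
        exact hCrC ((Subgroup.mem_normalizer_iff.mp htN _).mp h1)
      · have h1 : c ^ k ∈ Q := by
          apply hQ1 _ hck
          rw [ho]
          exact Nat.Coprime.pow_left _ ((Nat.coprime_primes hq hr).mpr hqr)
        have h2 := htQ _ h1
        have e : t * c ^ k * t⁻¹ = c ^ k := by rw [← h2]; group
        rw [e]; exact hck
    rw [hCself] at htC
    obtain ⟨k, hk⟩ := hTp ⟨t, htT⟩
    exact hCr1 t htC k (by have := congrArg Subtype.val hk; simpa using this)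
  rw [← hEq] at hRT
  exact hCrC (hRT hnR)

/-- The system normalizer of a Hall complement system reducing into a Carter subgroup lies in
that Carter subgroup. -/
theorem sysnorm_le_carter : ∀ (n : ℕ) (G : Type u) [Group G] [Finite G] [Group.IsSolvable G],
    Nat.card G ≤ n → ∀ (K : Nat.Primes → Subgroup G), Cfsg.IsComplementSystem K →
    ∀ C : Subgroup G, Group.IsNilpotent C → Subgroup.normalizer (C : Set G) = C →
    (∀ (p : Nat.Primes) (x : G), x ∈ C → ¬ (p : ℕ) ∣ orderOf x → x ∈ K p) →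
    Cfsg.systemNormalizer K ≤ C := by
  intro n
  induction n with
  | zero =>
    intro G _ _ _ h
    have := Nat.card_pos (α := G)
    omega
  | succ n ih =>
    intro G _ _ _ hcard K hK C hCnil hCself hred
    classical
    rcases subsingleton_or_nontrivial G with hsub | hnt
    · intro d _
      have : d = 1 := Subsingleton.elim _ _
      rw [this]; exact C.one_mem
    obtain ⟨r, hr, N, hNn, hNne, hNp⟩ := Cfsg.Agent.Helper3.exists_normal_pgroup_of_solvable G
    haveI := hNn
    haveI : Fact r.Prime := ⟨hr⟩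
    have hlt : Nat.card (G ⧸ N) ≤ n := by
      have h1 : 1 < Nat.card N := (Subgroup.one_lt_card_iff_ne_bot N).mpr hNne
      have := Cfsg.Agent.Helper1.card_quotient_lt N h1
      omega
    have h545 := Cfsg.Agent.S0545.result K hK N
    have hCbnil : Group.IsNilpotent (C.map (QuotientGroup.mk' N)) := by
      haveI := hCnil
      exact Group.nilpotent_of_surjective ((QuotientGroup.mk' N).subgroupMap C)
        (MonoidHom.subgroupMap_surjective _ _)
    have hCbself : Subgroup.normalizer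
        ((C.map (QuotientGroup.mk' N) : Subgroup (G ⧸ N)) : Set (G ⧸ N)) =
        C.map (QuotientGroup.mk' N) := by
      apply le_antisymm
      · have IHU : ∀ (H : Subgroup G), H ≠ ⊤ → ∀ C' D' : Subgroup H,
            Cfsg.Agent.S0045.IsCarter C' → Cfsg.Agent.S0045.IsCarter D' →
            ∃ h : H, MulAut.conj h • C' = D' := by
          intro H _ C' D' hC' hD'
          exact (Cfsg.Agent.S0045.main (Nat.card H) H le_rfl).2 C' D' hC' hD'
        have := Cfsg.Agent.S0045.carter_map IHU ⊤ N C le_top le_top hCnil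
          (by rw [hCself]; exact inf_le_right)
        intro q hq
        apply this
        refine Subgroup.mem_inf.mpr ⟨?_, hq⟩
        obtain ⟨g, rfl⟩ := QuotientGroup.mk'_surjective N q
        exact Subgroup.mem_map_of_mem _ (Subgroup.mem_top g)
      · exact Subgroup.le_normalizer
    have hredb : ∀ (p : Nat.Primes) (x : G ⧸ N), x ∈ C.map (QuotientGroup.mk' N) →
        ¬ (p : ℕ) ∣ orderOf x → x ∈ (K p).map (QuotientGroup.mk' N) := by
      intro p x hx hpx
      obtain ⟨c, hc, rfl⟩ := hx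
      obtain ⟨a, m, hm, hcm⟩ :=
        Nat.exists_eq_pow_mul_and_not_dvd (orderOf_pos c).ne' (p : ℕ) p.2.ne_one
      have h1 : c ^ ((p : ℕ) ^ a) ∈ K p := by
        apply hred p _ (C.pow_mem hc _)
        intro hdvd
        apply hm
        apply dvd_trans hdvd
        apply orderOf_dvd_of_pow_eq_one
        rw [← pow_mul, ← hcm]; exact pow_orderOf_eq_one c
      have h2 : (QuotientGroup.mk' N c) ^ ((p : ℕ) ^ a) ∈ (K p).map (QuotientGroup.mk' N) := by
        rw [← map_pow]; exact Subgroup.mem_map_of_mem _ h1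
      have hcop : Nat.Coprime ((p : ℕ) ^ a) (orderOf (QuotientGroup.mk' N c)) :=
        Nat.Coprime.pow_left _ ((Nat.Prime.coprime_iff_not_dvd p.2).mpr hpx)
      obtain ⟨j, hj⟩ := exists_pow_eq_self_of_coprime hcop
      rw [← hj]
      exact Subgroup.pow_mem _ h2 j
    have hDb := ih (G ⧸ N) hlt _ h545.1 _ hCbnil hCbself hredb
    rw [h545.2] at hDb
    intro d hd
    obtain ⟨c, hc, hcd⟩ := hDb (Subgroup.mem_map_of_mem _ hd)
    obtain ⟨n', hn'def⟩ : ∃ n' : G, n' = d * c⁻¹ := ⟨_, rfl⟩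
    have hn' : n' ∈ N := by
      have : QuotientGroup.mk' N (d * c⁻¹) = 1 := by
        rw [map_mul, map_inv, hcd, mul_inv_cancel]
      rw [hn'def]
      exact (QuotientGroup.eq_one_iff _).mp this
    have hdn : d = n' * c := by rw [hn'def]; group
    have hQ2 : ∀ x ∈ K ⟨r, hr⟩ ⊓ C, (orderOf x).Coprime r := by
      intro x hx
      have h1 : orderOf x ∣ Nat.card (K ⟨r, hr⟩) := by
        have := orderOf_dvd_natCard (⟨x, (Subgroup.mem_inf.mp hx).1⟩ : K ⟨r, hr⟩)
        rwa [Subgroup.orderOf_mk] at this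
      exact (Nat.Coprime.coprime_dvd_right h1 (compl_card_coprime K hK ⟨r, hr⟩)).symm
    have hQ1 : ∀ x ∈ C, (orderOf x).Coprime r → x ∈ K ⟨r, hr⟩ ⊓ C := by
      intro x hx hxo
      refine Subgroup.mem_inf.mpr ⟨hred ⟨r, hr⟩ x hx ?_, hx⟩
      exact (Nat.Prime.coprime_iff_not_dvd hr).mp hxo.symm
    have hdN : d ∈ Subgroup.normalizer ((K ⟨r, hr⟩ : Subgroup G) : Set G) := by
      unfold Cfsg.systemNormalizer at hd
      exact (Subgroup.mem_iInf.mp hd) ⟨r, hr⟩
    have hCQ : ∀ c' ∈ C, ∀ x ∈ K ⟨r, hr⟩ ⊓ C, c' * x * c'⁻¹ ∈ K ⟨r, hr⟩ ⊓ C := by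
      intro c' hc' x hx
      apply hQ1 _ (C.mul_mem (C.mul_mem hc' (Subgroup.mem_inf.mp hx).2) (C.inv_mem hc'))
      have := MulEquiv.orderOf_eq (MulAut.conj c') x
      rw [MulAut.conj_apply] at this
      rw [this]; exact hQ2 x hx
    have hdisj : K ⟨r, hr⟩ ⊓ N = ⊥ := by
      obtain ⟨k, hk⟩ := IsPGroup.iff_card.mp hNp
      have hc := compl_card_coprime K hK ⟨r, hr⟩
      have hc' : (Nat.card (K ⟨r, hr⟩)).Coprime (Nat.card N) := by
        rw [hk]; exact (Nat.Coprime.pow_left _ hc).symm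
      exact (Subgroup.disjoint_of_coprime_natCard hc').eq_bot
    have hnQ : ∀ y ∈ K ⟨r, hr⟩ ⊓ C, n' * y = y * n' := by
      intro y hy
      have hx : c⁻¹ * y * c ∈ K ⟨r, hr⟩ ⊓ C := by
        have := hCQ c⁻¹ (C.inv_mem hc) y hy
        rwa [inv_inv] at this
      have h1 : d * (c⁻¹ * y * c) * d⁻¹ ∈ K ⟨r, hr⟩ :=
        (Subgroup.mem_normalizer_iff.mp hdN _).mp (Subgroup.mem_inf.mp hx).1
      have h2 : n' * y * n'⁻¹ * y⁻¹ ∈ K ⟨r, hr⟩ := by
        have := Subgroup.mul_mem _ h1 (Subgroup.inv_mem _ (Subgroup.mem_inf.mp hy).1)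
        convert this using 1
        rw [hdn]; group
      have h3 : n' * y * n'⁻¹ * y⁻¹ ∈ N := by
        have := hNn.conj_mem _ (N.inv_mem hn') y
        have h4 := N.mul_mem hn' this
        convert h4 using 1; group
      have h5 : n' * y * n'⁻¹ * y⁻¹ = 1 := by
        have : n' * y * n'⁻¹ * y⁻¹ ∈ K ⟨r, hr⟩ ⊓ N := Subgroup.mem_inf.mpr ⟨h2, h3⟩
        rwa [hdisj, Subgroup.mem_bot] at this
      have := congrArg (fun t => t * y * n') h5
      simpa [mul_assoc] using this
    have hnC := carter_absorb r C N (K ⟨r, hr⟩ ⊓ C) hCnil hCself hNp inf_le_right hQ1 hQ2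
      n' hn' hnQ
    rw [hdn]; exact C.mul_mem hnC hc

end Cfsg.Agent.Helper6
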