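import Mathlib
import Cfsg.Agent.Helper6.CarterSys

set_option autoImplicit false

namespace Cfsg.Agent.Helper6

open scoped Pointwise

universe u

/-- A nilpotent subgroup has a `p'`-subgroup containing all its `p'`-elements. -/
theorem pprime_part {G : Type u} [Group G] [Finite G] (C : Subgroup G)
    (hCnil : Group.IsNilpotent C) (p : ℕ) [Fact p.Prime] :
    ∃ X : Subgroup G, X ≤ C ∧ (Nat.card X).Coprime p ∧
      ∀ x ∈ C, ¬ p ∣ orderOf x → x ∈ X := by
  classical
  haveI := hCnil
  have hp : p.Prime := Fact.out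
  obtain ⟨P⟩ : Nonempty (Sylow p C) := inferInstance
  haveI hPn : (P : Subgroup C).Normal :=
    Sylow.normal_of_normalizerCondition Group.normalizerCondition_of_isNilpotent P
  obtain ⟨H, hH⟩ := Subgroup.exists_right_complement'_of_coprime P.card_coprime_index
  have hHcard : Nat.card H = (P : Subgroup C).index := by
    have h1 := hH.card_mul_card
    have h2 := Subgroup.card_mul_index (P : Subgroup C)
    exact Nat.eq_of_mul_eq_mul_left Nat.card_pos (h1.trans h2.symm)
  have hHcop : (Nat.card H).Coprime p := by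
    rw [hHcard]
    exact ((Nat.Prime.coprime_iff_not_dvd hp).mpr P.not_dvd_index).symm
  have hmem : ∀ c : C, ¬ p ∣ orderOf c → c ∈ H := by
    intro c hc
    have hc_top : c ∈ (P : Subgroup C) ⊔ H := by rw [hH.sup_eq_top]; trivial
    obtain ⟨u, hu, h, hh, huh⟩ := Subgroup.mem_sup_of_normal_left.mp hc_top
    obtain ⟨k, hk⟩ := IsPGroup.iff_card.mp P.isPGroup'
    have huk : u ^ (p ^ k) = 1 := by
      have := pow_card_eq_one' (G := (P : Subgroup C)) (x := ⟨u, hu⟩)
      rw [hk] at this
      exact congrArg Subtype.val this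
    have hho : (orderOf h).Coprime p := by
      have h1 : orderOf h ∣ Nat.card H := by
        have := orderOf_dvd_natCard (⟨h, hh⟩ : H)
        rwa [Subgroup.orderOf_mk] at this
      exact Nat.Coprime.coprime_dvd_left h1 hHcop
    have hcomm : u * h = h * u :=
      Cfsg.Agent.Helper7.commute_of_nilpotent_coprime p u h k huk hho
    have hpow : c ^ (p ^ k) ∈ H := by
      rw [← huh, (show Commute u h from hcomm).mul_pow, huk, one_mul]
      exact H.pow_mem hh _
    have hcop : Nat.Coprime (p ^ k) (orderOf c) :=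
      Nat.Coprime.pow_left _ ((Nat.Prime.coprime_iff_not_dvd hp).mpr hc)
    obtain ⟨j, hj⟩ := exists_pow_eq_self_of_coprime hcop
    rw [← hj]; exact H.pow_mem hpow j
  refine ⟨H.map C.subtype, Subgroup.map_subtype_le H, ?_, ?_⟩
  · rw [Subgroup.card_map_of_injective C.subtype_injective]; exact hHcop
  · intro x hx hpx
    refine ⟨⟨x, hx⟩, hmem ⟨x, hx⟩ ?_, rfl⟩
    rw [Subgroup.orderOf_mk]; exact hpx

/-- Every nilpotent subgroup of a finite solvable group has a Hall complement system reducing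
into it. -/
theorem exists_reducing_system {G : Type u} [Group G] [Finite G] [Group.IsSolvable G]
    (C : Subgroup G) (hCnil : Group.IsNilpotent C) :
    ∃ K : Nat.Primes → Subgroup G, Cfsg.IsComplementSystem K ∧
      ∀ (p : Nat.Primes) (x : G), x ∈ C → ¬ (p : ℕ) ∣ orderOf x → x ∈ K p := by
  classical
  have key : ∀ p : Nat.Primes, ∃ H : Subgroup G,
      H.index = (p : ℕ) ^ (Nat.card G).factorization p ∧
      ∀ x : G, x ∈ C → ¬ (p : ℕ) ∣ orderOf x → x ∈ H := by
    intro p
    haveI : Fact (p : ℕ).Prime := ⟨p.2⟩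
    obtain ⟨X, hXC, hXcop, hX⟩ := pprime_part C hCnil (p : ℕ)
    have hG : Nat.card G = (Nat.card G / (p : ℕ) ^ (Nat.card G).factorization p) *
        (p : ℕ) ^ (Nat.card G).factorization p :=
      (Nat.div_mul_cancel (Nat.ordProj_dvd _ _)).symm
    have hmn : (Nat.card G / (p : ℕ) ^ (Nat.card G).factorization p).Coprime
        ((p : ℕ) ^ (Nat.card G).factorization p) :=
      (Nat.Coprime.pow_left _ (Nat.coprime_ordCompl p.2 Nat.card_pos.ne')).symm
    obtain ⟨H, hH, hXH⟩ := Cfsg.Agent.S0005.result _ _ hG hmn X (Nat.Coprime.pow_right _ hXcop)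
    refine ⟨H, ?_, fun x hx hpx => hXH (hX x hx hpx)⟩
    have h1 := Subgroup.card_mul_index H
    rw [hH] at h1
    have h2 : Nat.card G / (p : ℕ) ^ (Nat.card G).factorization p * H.index =
        Nat.card G / (p : ℕ) ^ (Nat.card G).factorization p *
          (p : ℕ) ^ (Nat.card G).factorization p := by rw [h1, ← hG]
    have hpos : 0 < Nat.card G / (p : ℕ) ^ (Nat.card G).factorization p := by
      rw [← hH]; exact Nat.card_pos
    exact Nat.eq_of_mul_eq_mul_left hpos h2
  choose K hK1 hK2 using key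
  exact ⟨K, hK1, hK2⟩

theorem sysnorm_conj_le {G : Type u} [Group G] (K L : Nat.Primes → Subgroup G) (g : G)
    (hg : ∀ p : Nat.Primes, MulAut.conj g • K p = L p) (C : Subgroup G)
    (h : Cfsg.systemNormalizer K ≤ C) : Cfsg.systemNormalizer L ≤ MulAut.conj g • C := by
  intro d hd
  rw [Cfsg.Agent.Lead.mem_conj_smul]
  apply h
  unfold Cfsg.systemNormalizer at hd ⊢
  rw [Subgroup.mem_iInf] at hd ⊢
  intro p
  have hdp := hd p
  rw [← hg p] at hdp
  rw [Subgroup.mem_normalizer_iff] at hdp ⊢
  intro x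
  have := hdp (g * x * g⁻¹)
  rw [Cfsg.Agent.Lead.mem_conj_smul, Cfsg.Agent.Lead.mem_conj_smul] at this
  have e1 : g⁻¹ * (g * x * g⁻¹) * g = x := by group
  have e2 : g⁻¹ * (d * (g * x * g⁻¹) * d⁻¹) * g = g⁻¹ * d * g * x * (g⁻¹ * d * g)⁻¹ := by group
  rw [e1, e2] at this
  exact this

end Cfsg.Agent.Helper6
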