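import Mathlib
import Cfsg.Agent.Helper6.CarterSys2
import Cfsg.Agent.S0568

set_option autoImplicit false

namespace Cfsg.Agent.Helper6

open scoped Pointwise

universe u

theorem mem_of_coprime_of_nilpotent {X : Type u} [Group X] [Finite X] [Group.IsNilpotent X]
    (p : ℕ) [Fact p.Prime] (H : Subgroup X) (hHcop : (Nat.card H).Coprime p)
    (hidx : ∃ j, H.index = p ^ j) (c : X) (hc : ¬ p ∣ orderOf c) : c ∈ H := by
  classical
  have hp : p.Prime := Fact.out
  obtain ⟨P⟩ : Nonempty (Sylow p X) := inferInstance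
  haveI hPn : (P : Subgroup X).Normal :=
    Sylow.normal_of_normalizerCondition Group.normalizerCondition_of_isNilpotent P
  obtain ⟨j, hj⟩ := hidx
  have htop : (P : Subgroup X) ⊔ H = ⊤ := by
    rw [← Subgroup.index_eq_one]
    apply Nat.eq_one_of_dvd_coprimes (a := p ^ j) (b := (P : Subgroup X).index)
    · exact Nat.Coprime.pow_left _ ((Nat.Prime.coprime_iff_not_dvd hp).mpr P.not_dvd_index)
    · rw [← hj]; exact Subgroup.index_dvd_of_le le_sup_right
    · exact Subgroup.index_dvd_of_le le_sup_left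
  have hc_top : c ∈ (P : Subgroup X) ⊔ H := by rw [htop]; trivial
  obtain ⟨u, hu, h, hh, huh⟩ := Subgroup.mem_sup_of_normal_left.mp hc_top
  obtain ⟨k, hk⟩ := IsPGroup.iff_card.mp P.isPGroup'
  have huk : u ^ (p ^ k) = 1 := by
    have := pow_card_eq_one' (G := (P : Subgroup X)) (x := ⟨u, hu⟩)
    rw [hk] at this
    exact congrArg Subtype.val this
  have hho : (orderOf h).Coprime p := by
    have h1 : orderOf h ∣ Nat.card H := by
      have := orderOf_dvd_natCard (⟨h, hh⟩ : H)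
      rwa [Subgroup.orderOf_mk] at this
    exact Nat.Coprime.coprime_dvd_left h1 hHcop
  have hcomm : u * h = h * u :=
    Cfsg.Agent.Helper7.commute_of_nilpotent_coprime p u h k huk hho
  have hpow : c ^ (p ^ k) ∈ H := by
    rw [← huh, (show Commute u h from hcomm).mul_pow, huk, one_mul]
    exact H.pow_mem hh _
  have hcop : Nat.Coprime (p ^ k) (orderOf c) :=
    Nat.Coprime.pow_left _ ((Nat.Prime.coprime_iff_not_dvd hp).mpr hc)
  obtain ⟨j', hj'⟩ := exists_pow_eq_self_of_coprime hcop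
  rw [← hj']; exact H.pow_mem hpow j'

theorem sysnorm_mul_eq_of_nilp_quot {G : Type u} [Group G] [Finite G] [Group.IsSolvable G]
    (K : Nat.Primes → Subgroup G) (hK : Cfsg.IsComplementSystem K)
    (F : Subgroup G) [F.Normal] (hGF : Group.IsNilpotent (G ⧸ F)) (x : G) :
    ∃ d ∈ Cfsg.systemNormalizer K, ∃ f ∈ F, x = d * f := by
  classical
  haveI := hGF
  apply sysnorm_cover K hK _ F inferInstance rfl x
  intro p
  haveI : Fact (p : ℕ).Prime := ⟨p.2⟩
  have hHb : ∀ y : G ⧸ F, ¬ (p : ℕ) ∣ orderOf y → y ∈ (K p).map (QuotientGroup.mk' F) := by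
    intro y hy
    apply mem_of_coprime_of_nilpotent (p : ℕ) _ _ _ y hy
    · exact Nat.Coprime.coprime_dvd_left (Subgroup.card_map_dvd (K p) _)
        (compl_card_coprime K hK p).symm
    · have hdvd : ((K p).map (QuotientGroup.mk' F)).index ∣
          (p : ℕ) ^ (Nat.card G).factorization p := by
        rw [← hK p]; exact Subgroup.index_map_dvd (K p) (QuotientGroup.mk'_surjective F)
      obtain ⟨j, -, hj⟩ := (Nat.dvd_prime_pow p.2).mp hdvd
      exact ⟨j, hj⟩
  have hnorm : QuotientGroup.mk' F x ∈ Subgroup.normalizer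
      (((K p).map (QuotientGroup.mk' F) : Subgroup (G ⧸ F)) : Set (G ⧸ F)) := by
    apply Cfsg.Agent.Lead.mem_normalizer_of_conj_mem
    intro s hs
    apply hHb
    have := MulEquiv.orderOf_eq (MulAut.conj (QuotientGroup.mk' F x)) s
    rw [MulAut.conj_apply] at this
    rw [this]
    intro hdvd
    have h1 : orderOf s ∣ Nat.card ((K p).map (QuotientGroup.mk' F)) := by
      have := orderOf_dvd_natCard (⟨s, hs⟩ : (K p).map (QuotientGroup.mk' F))
      rwa [Subgroup.orderOf_mk] at this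
    have h2 := dvd_trans (dvd_trans hdvd h1) (Subgroup.card_map_dvd (K p) _)
    exact p.2.one_lt.ne' (Nat.Coprime.eq_one_of_dvd (compl_card_coprime K hK p) h2)
  have h2 := Subgroup.le_normalizer_comap (QuotientGroup.mk' F)
    (H := (K p).map (QuotientGroup.mk' F)) (Subgroup.mem_comap.mpr hnorm)
  rwa [Subgroup.comap_map_eq, QuotientGroup.ker_mk'] at h2

theorem comm_mem_of_chief_nilpotent {G : Type u} [Group G] [Finite G]
    (F M₁ M : Subgroup G) [hFn : F.Normal] [hM₁n : M₁.Normal] [hMn : M.Normal]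
    (hF : Group.IsNilpotent F) (hM₁M : M₁ ≤ M) (hne : M₁ ≠ M) (hMF : M ≤ F)
    (hchief : ∀ L : Subgroup G, L.Normal → M₁ ≤ L → L ≤ M → L = M₁ ∨ L = M) :
    ∀ m ∈ M, ∀ f ∈ F, QuotientGroup.mk' M₁ m * QuotientGroup.mk' M₁ f =
      QuotientGroup.mk' M₁ f * QuotientGroup.mk' M₁ m := by
  classical
  haveI := hF
  have hsurj := QuotientGroup.mk'_surjective M₁
  obtain ⟨Fb, hFb⟩ : ∃ Fb : Subgroup (G ⧸ M₁), Fb = F.map (QuotientGroup.mk' M₁) := ⟨_, rfl⟩
  obtain ⟨Mb, hMb⟩ : ∃ Mb : Subgroup (G ⧸ M₁), Mb = M.map (QuotientGroup.mk' M₁) := ⟨_, rfl⟩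
  haveI hFbn : Fb.Normal := by rw [hFb]; exact Subgroup.Normal.map inferInstance _ hsurj
  haveI hMbn : Mb.Normal := by rw [hMb]; exact Subgroup.Normal.map inferInstance _ hsurj
  haveI hFbnil : Group.IsNilpotent Fb := by
    rw [hFb]
    exact Group.nilpotent_of_surjective ((QuotientGroup.mk' M₁).subgroupMap F)
      (MonoidHom.subgroupMap_surjective _ _)
  obtain ⟨m₀, hm₀M, hm₀⟩ : ∃ m₀ ∈ M, m₀ ∉ M₁ := by
    by_contra hcon
    push Not at hcon
    exact hne (le_antisymm hM₁M hcon)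
  have hm₀Fb : QuotientGroup.mk' M₁ m₀ ∈ Fb := by
    rw [hFb]; exact Subgroup.mem_map_of_mem _ (hMF hm₀M)
  have hne' : Mb.subgroupOf Fb ≠ ⊥ := by
    intro h
    have h1 : (⟨QuotientGroup.mk' M₁ m₀, hm₀Fb⟩ : Fb) ∈ Mb.subgroupOf Fb := by
      rw [Subgroup.mem_subgroupOf, hMb]; exact Subgroup.mem_map_of_mem _ hm₀M
    rw [h, Subgroup.mem_bot] at h1
    have h2 : QuotientGroup.mk' M₁ m₀ = 1 := congrArg Subtype.val h1
    exact hm₀ ((QuotientGroup.eq_one_iff m₀).mp h2)
  have h65 := Cfsg.Agent.S0065.result (Mb.subgroupOf Fb) hne'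
  obtain ⟨z, hz, hz1⟩ : ∃ z ∈ Mb.subgroupOf Fb ⊓ Subgroup.center Fb, z ≠ 1 := by
    by_contra hcon
    push Not at hcon
    exact h65 (eq_bot_iff.mpr (fun z hz => Subgroup.mem_bot.mpr (hcon z hz)))
  obtain ⟨hzM, hzc⟩ := Subgroup.mem_inf.mp hz
  obtain ⟨Y, hYdef⟩ : ∃ Y : Subgroup G, Y = M ⊓
      (Subgroup.centralizer (Fb : Set (G ⧸ M₁))).comap (QuotientGroup.mk' M₁) := ⟨_, rfl⟩
  haveI hYn : Y.Normal := by rw [hYdef]; infer_instance
  have hM₁Y : M₁ ≤ Y := by
    intro a ha
    rw [hYdef]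
    refine Subgroup.mem_inf.mpr ⟨hM₁M ha, ?_⟩
    rw [Subgroup.mem_comap]
    have : QuotientGroup.mk' M₁ a = 1 := (QuotientGroup.eq_one_iff a).mpr ha
    rw [this]; exact Subgroup.one_mem _
  have hYM : Y ≤ M := by rw [hYdef]; exact inf_le_left
  have hYne : Y ≠ M₁ := by
    intro h
    have hzM' : (z : G ⧸ M₁) ∈ Mb := Subgroup.mem_subgroupOf.mp hzM
    rw [hMb] at hzM'
    obtain ⟨m, hm, hmz⟩ := hzM'
    have hmY : m ∈ Y := by
      rw [hYdef]
      refine Subgroup.mem_inf.mpr ⟨hm, ?_⟩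
      rw [Subgroup.mem_comap, Subgroup.mem_centralizer_iff, hmz]
      intro w hw
      have := Subgroup.mem_center_iff.mp hzc ⟨w, hw⟩
      exact congrArg Subtype.val this
    rw [h] at hmY
    have : (z : G ⧸ M₁) = 1 := by rw [← hmz]; exact (QuotientGroup.eq_one_iff m).mpr hmY
    exact hz1 (Subtype.ext this)
  have hYeq : Y = M := (hchief Y hYn hM₁Y hYM).resolve_left hYne
  intro m hm f hf
  have hmY : m ∈ Y := by rw [hYeq]; exact hm
  rw [hYdef] at hmY
  have h1 := (Subgroup.mem_inf.mp hmY).2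
  rw [Subgroup.mem_comap, Subgroup.mem_centralizer_iff] at h1
  have h2 := h1 (QuotientGroup.mk' M₁ f) (by rw [hFb]; exact Subgroup.mem_map_of_mem _ hf)
  exact h2.symm

theorem sysnorm_normalizer_inf_le {G : Type u} [Group G] [Finite G] [Group.IsSolvable G]
    (K : Nat.Primes → Subgroup G) (hK : Cfsg.IsComplementSystem K)
    (F : Subgroup G) [hFn : F.Normal] (hF : Group.IsNilpotent F)
    (hGF : Group.IsNilpotent (G ⧸ F)) :
    ∀ k : ℕ, ∀ M : Subgroup G, M.Normal → M ≤ F → Nat.card M = k →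
      ∀ x ∈ M, x ∈ Subgroup.normalizer ((Cfsg.systemNormalizer K : Subgroup G) : Set G) →
        x ∈ Cfsg.systemNormalizer K := by
  intro k
  induction k using Nat.strong_induction_on with
  | _ k ih =>
    intro M hMn hMF hMk x hxM hxN
    classical
    haveI := hMn
    by_cases hM : M = ⊥
    · rw [hM, Subgroup.mem_bot] at hxM
      rw [hxM]; exact Subgroup.one_mem _
    haveI : Nonempty {L : Subgroup G // L.Normal ∧ L < M} :=
      ⟨⟨⊥, inferInstance, bot_lt_iff_ne_bot.mpr hM⟩⟩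
    obtain ⟨M₁', hM₁max⟩ := Finite.exists_max
      (fun L : {L : Subgroup G // L.Normal ∧ L < M} => Nat.card (L : Subgroup G))
    obtain ⟨M₁, hM₁n, hM₁lt⟩ := M₁'
    haveI := hM₁n
    have hchief : ∀ L : Subgroup G, L.Normal → M₁ ≤ L → L ≤ M → L = M₁ ∨ L = M := by
      intro L hLn hM₁L hLM
      by_cases hLeq : L = M
      · right; exact hLeq
      · left
        have := hM₁max ⟨L, hLn, lt_of_le_of_ne hLM hLeq⟩
        exact (Subgroup.eq_of_le_of_card_ge hM₁L this).symm
    have hlt : Nat.card M₁ < k := by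
      rw [← hMk]
      exact lt_of_le_of_ne (Subgroup.card_le_of_le hM₁lt.le)
        (fun h => hM₁lt.ne (Subgroup.eq_of_le_of_card_ge hM₁lt.le h.ge))
    have hIH := ih (Nat.card M₁) hlt M₁ hM₁n (le_trans hM₁lt.le hMF) rfl
    have h568 := Cfsg.Agent.S0568.result K hK M₁ M hM₁lt hchief
    by_cases hcent : ⁅M, (⊤ : Subgroup G)⁆ ≤ M₁
    · have hx' := h568.1 hcent hxM
      obtain ⟨m₁, hm₁, d, hd, hmd⟩ := Subgroup.mem_sup_of_normal_left.mp hx'
      have hm₁N : m₁ ∈ Subgroup.normalizer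
          ((Cfsg.systemNormalizer K : Subgroup G) : Set G) := by
        have : m₁ = x * d⁻¹ := by rw [← hmd]; group
        rw [this]
        exact Subgroup.mul_mem _ hxN (Subgroup.inv_mem _ (Subgroup.le_normalizer hd))
      rw [← hmd]
      exact Subgroup.mul_mem _ (hIH m₁ hm₁ hm₁N) hd
    · have havoid := h568.2 hcent
      refine hIH x ?_ hxN
      obtain ⟨Z, hZdef⟩ : ∃ Z : Subgroup G, Z = M ⊓
          (Subgroup.center (G ⧸ M₁)).comap (QuotientGroup.mk' M₁) := ⟨_, rfl⟩
      haveI hZn : Z.Normal := by rw [hZdef]; infer_instance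
      have hM₁Z : M₁ ≤ Z := by
        intro a ha
        rw [hZdef]
        refine Subgroup.mem_inf.mpr ⟨hM₁lt.le ha, ?_⟩
        rw [Subgroup.mem_comap]
        have : QuotientGroup.mk' M₁ a = 1 := (QuotientGroup.eq_one_iff a).mpr ha
        rw [this]; exact Subgroup.one_mem _
      have hZM : Z ≤ M := by rw [hZdef]; exact inf_le_left
      have hZne : Z ≠ M := by
        intro h
        apply hcent
        rw [Subgroup.commutator_le]
        intro m hm g _
        have hmZ : m ∈ Z := by rw [h]; exact hm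
        rw [hZdef] at hmZ
        have h1 := (Subgroup.mem_inf.mp hmZ).2
        rw [Subgroup.mem_comap, Subgroup.mem_center_iff] at h1
        have h2 := h1 (QuotientGroup.mk' M₁ g)
        have e : (QuotientGroup.mk' M₁) (m * g * m⁻¹ * g⁻¹) = 1 := by
          rw [map_mul, map_mul, map_mul, map_inv, map_inv, ← h2]; group
        exact (QuotientGroup.eq_one_iff _).mp e
      have hZeq : Z = M₁ := (hchief Z hZn hM₁Z hZM).resolve_right hZne
      rw [← hZeq, hZdef]
      refine Subgroup.mem_inf.mpr ⟨hxM, ?_⟩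
      rw [Subgroup.mem_comap, Subgroup.mem_center_iff]
      intro gb
      obtain ⟨g, rfl⟩ := QuotientGroup.mk'_surjective M₁ gb
      obtain ⟨d, hd, f, hf, hgdf⟩ := sysnorm_mul_eq_of_nilp_quot K hK F hGF g
      have hcf := comm_mem_of_chief_nilpotent F M₁ M hF hM₁lt.le hM₁lt.ne hMF hchief x hxM f hf
      have hcd : QuotientGroup.mk' M₁ x * QuotientGroup.mk' M₁ d =
          QuotientGroup.mk' M₁ d * QuotientGroup.mk' M₁ x := by
        have h1 : x * d * x⁻¹ ∈ Cfsg.systemNormalizer K :=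
          (Subgroup.mem_normalizer_iff.mp hxN d).mp hd
        have h2 : x * d * x⁻¹ * d⁻¹ ∈ Cfsg.systemNormalizer K :=
          Subgroup.mul_mem _ h1 (Subgroup.inv_mem _ hd)
        have h3 : x * d * x⁻¹ * d⁻¹ ∈ M := by
          have := hMn.conj_mem x⁻¹ (M.inv_mem hxM) d
          have h4 := M.mul_mem hxM this
          convert h4 using 1; group
        have h5 : x * d * x⁻¹ * d⁻¹ ∈ M₁ := havoid (Subgroup.mem_inf.mpr ⟨h3, h2⟩)
        have h6 : QuotientGroup.mk' M₁ (x * d * x⁻¹ * d⁻¹) = 1 :=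
          (QuotientGroup.eq_one_iff _).mpr h5
        rw [map_mul, map_mul, map_mul, map_inv, map_inv] at h6
        have := congrArg (fun t => t * QuotientGroup.mk' M₁ d * QuotientGroup.mk' M₁ x) h6
        simpa [mul_assoc] using this
      have key : ∀ (a b c : G ⧸ M₁), a * c = c * a → a * b = b * a →
          b * c * a = a * (b * c) := by
        intro a b c h1 h2
        rw [mul_assoc, ← h1, ← mul_assoc, ← h2, mul_assoc]
      rw [hgdf, map_mul]
      exact key _ _ _ hcf hcd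

/-- In a group of nilpotent length at most two, system normalizers are Carter subgroups. -/
theorem sysnorm_isCarter_of_nilp_quot {G : Type u} [Group G] [Finite G] [Group.IsSolvable G]
    (K : Nat.Primes → Subgroup G) (hK : Cfsg.IsComplementSystem K)
    (F : Subgroup G) [hFn : F.Normal] (hF : Group.IsNilpotent F)
    (hGF : Group.IsNilpotent (G ⧸ F)) :
    Cfsg.IsCarterSubgroup (Cfsg.systemNormalizer K) := by
  refine ⟨systemNormalizer_nilpotent K hK, le_antisymm ?_ Subgroup.le_normalizer⟩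
  intro y hy
  obtain ⟨d, hd, f, hf, hydf⟩ := sysnorm_mul_eq_of_nilp_quot K hK F hGF y
  have hfN : f ∈ Subgroup.normalizer ((Cfsg.systemNormalizer K : Subgroup G) : Set G) := by
    have : f = d⁻¹ * y := by rw [hydf]; group
    rw [this]
    exact Subgroup.mul_mem _ (Subgroup.inv_mem _ (Subgroup.le_normalizer hd)) hy
  have := sysnorm_normalizer_inf_le K hK F hF hGF _ F hFn le_rfl rfl f hf hfN
  rw [hydf]; exact Subgroup.mul_mem _ hd this

end Cfsg.Agent.Helper6
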