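import Mathlib
import Cfsg.Agent.Helper6.Coprime

set_option autoImplicit false

namespace Cfsg.Agent.Helper6

variable {G : Type*} [Group G]

/-- A `p'`-element normalizing an abelian `p`-subgroup `X` and fixing every element of order
dividing `p` of `X` centralizes `X`. -/
theorem centralizes_abelian_of_omega_one [Finite G] {p : ℕ} [Fact p.Prime] (X : Subgroup G)
    (hXp : IsPGroup p X) (hXc : ∀ a ∈ X, ∀ b ∈ X, a * b = b * a) (g : G)
    (hg : g ∈ Subgroup.normalizer (X : Set G)) (hcop : (orderOf g).Coprime p)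
    (hom : ∀ a ∈ X, a ^ p = 1 → g * a * g⁻¹ = a) : ∀ a ∈ X, g * a * g⁻¹ = a := by
  have key : ∀ i : ℕ, ∀ a ∈ X, a ^ p ^ i = 1 → g * a * g⁻¹ = a := by
    intro i
    induction i with
    | zero =>
      intro a _ h1
      rw [pow_zero, pow_one] at h1
      rw [h1]; group
    | succ i ih =>
      intro a ha h1
      have hga : g * a * g⁻¹ ∈ X := (Subgroup.mem_normalizer_iff.mp hg a).mp ha
      have hb : (a ^ p ^ i) ^ p = 1 := by rw [← pow_mul, ← pow_succ]; exact h1
      have hbfix := hom (a ^ p ^ i) (X.pow_mem ha _) hb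
      obtain ⟨c, hcdef⟩ : ∃ c : G, c = a⁻¹ * (g * a * g⁻¹) := ⟨_, rfl⟩
      have hcX : c ∈ X := by rw [hcdef]; exact X.mul_mem (X.inv_mem ha) hga
      have hcomm : Commute a⁻¹ (g * a * g⁻¹) := hXc _ (X.inv_mem ha) _ hga
      have hcpow : c ^ p ^ i = 1 := by
        rw [hcdef, hcomm.mul_pow, inv_pow, conj_pow, hbfix, inv_mul_cancel]
      have hgc : g * c = c * g := by
        have := ih c hcX hcpow
        calc g * c = (g * c * g⁻¹) * g := by group
          _ = c * g := by rw [this]
      have hy : g * a * g⁻¹ = a * c := by rw [hcdef]; group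
      have hc1 := eq_one_of_conj_eq_mul hy hgc hcpow hcop
      rw [hy, hc1, mul_one]
  intro a ha
  obtain ⟨k, hk⟩ := (IsPGroup.iff_orderOf.mp hXp) ⟨a, ha⟩
  apply key k a ha
  have h1 : (⟨a, ha⟩ : X) ^ p ^ k = 1 := by rw [← hk]; exact pow_orderOf_eq_one _
  have h2 := congrArg (fun z : X => (z : G)) h1
  simpa using h2

/-- Orbit counting for an element `h` normalizing a `p`-group `V` with `h ^ q` centralizing it:
if `h` does not centralize `V`, then `q` divides `p ^ j - 1` for some `1 ≤ j ≤ log_p |V|`. -/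
theorem exists_dvd_pow_sub_one_of_action [Finite G] {p q : ℕ} [Fact p.Prime] [Fact q.Prime]
    (hpq : p ≠ q) (V : Subgroup G) (hVp : IsPGroup p V) (h : G)
    (hN : ∀ v ∈ V, h * v * h⁻¹ ∈ V)
    (hq : ∀ v ∈ V, h ^ q * v * (h ^ q)⁻¹ = v) (hne : ∃ v ∈ V, h * v * h⁻¹ ≠ v)
    (k : ℕ) (hk : Nat.card V = p ^ k) : ∃ j : ℕ, 1 ≤ j ∧ j ≤ k ∧ q ∣ p ^ j - 1 := by
  classical
  have hp : p.Prime := Fact.out
  have hqp : q.Prime := Fact.out
  haveI : Fintype V := Fintype.ofFinite V
  let f : Function.End V := fun v => ⟨h * v * h⁻¹, hN v v.2⟩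
  have hiter : ∀ (n : ℕ) (v : V), (((f ^ n) v : V) : G) = h ^ n * v * (h ^ n)⁻¹ := by
    intro n
    induction n with
    | zero =>
      intro v
      have h0 : (f ^ 0) v = v := rfl
      rw [h0]; simp
    | succ n ih =>
      intro v
      rw [pow_succ']
      show h * ((f ^ n) v : V) * h⁻¹ = _
      rw [ih v, pow_succ']
      group
  have hf : f ^ q ^ 1 = 1 := by
    rw [pow_one]
    funext v
    apply Subtype.ext
    rw [hiter q v]
    exact hq v v.2
  have hmod := Equiv.Perm.card_fixedPoints_modEq (p := q) (n := 1) hf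
  obtain ⟨F, hFdef⟩ : ∃ F : Subgroup V, F = (Subgroup.centralizer {h}).subgroupOf V := ⟨_, rfl⟩
  have hFmem : ∀ v : V, v ∈ F ↔ h * (v : G) * h⁻¹ = v := by
    intro v
    rw [hFdef, Subgroup.mem_subgroupOf, Subgroup.mem_centralizer_iff]
    constructor
    · intro hc
      have := hc h (Set.mem_singleton h)
      rw [this]; group
    · intro hc y hy
      rw [Set.mem_singleton_iff] at hy
      subst hy
      calc y * (v : G) = (y * (v : G) * y⁻¹) * y := by group
        _ = (v : G) * y := by rw [hc]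
  have hcardF : Fintype.card (Function.fixedPoints f) = Nat.card F := by
    rw [Fintype.card_eq_nat_card]
    apply Nat.card_congr
    refine Equiv.subtypeEquivRight (fun v => ?_)
    rw [hFmem v]
    show f v = v ↔ _
    constructor
    · intro hv
      exact congrArg (fun z : V => (z : G)) hv
    · intro hv
      exact Subtype.ext hv
  obtain ⟨c, hc⟩ := IsPGroup.iff_card.mp (hVp.to_subgroup F)
  have hdvd : Nat.card F ∣ Nat.card V := Subgroup.card_subgroup_dvd_card F
  rw [hc, hk] at hdvd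
  have hck : c ≤ k := (Nat.pow_dvd_pow_iff_le_right hp.one_lt).mp hdvd
  have hckne : c ≠ k := by
    intro heq
    have h1 : Nat.card F = Nat.card V := by rw [hc, hk, heq]
    have h2 : F = ⊤ := Subgroup.eq_top_of_card_eq F h1
    obtain ⟨v, hv, hvne⟩ := hne
    have h3 : (⟨v, hv⟩ : V) ∈ F := by rw [h2]; exact Subgroup.mem_top _
    exact hvne ((hFmem ⟨v, hv⟩).mp h3)
  have hlt : c < k := lt_of_le_of_ne hck hckne
  rw [hcardF, Fintype.card_eq_nat_card, hk, hc] at hmod
  have h4 : q ∣ p ^ k - p ^ c :=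
    (Nat.modEq_iff_dvd' (Nat.pow_le_pow_right hp.pos hck)).mp hmod.symm
  have h5 : p ^ k - p ^ c = p ^ c * (p ^ (k - c) - 1) := by
    rw [Nat.mul_sub, mul_one, ← pow_add, Nat.add_sub_cancel' hck]
  rw [h5] at h4
  have h6 : Nat.Coprime q (p ^ c) :=
    Nat.Coprime.pow_right _ ((Nat.coprime_primes hqp hp).mpr (fun e => hpq e.symm))
  exact ⟨k - c, by omega, by omega, h6.dvd_of_dvd_mul_left h4⟩

/-- In a finite abelian group, the number of solutions of `x ^ p = 1` divides `p ^ rank`. -/
theorem card_ker_pow_dvd {A : Type*} [CommGroup A] [Finite A] (p : ℕ) :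
    Nat.card (powMonoidHom p : A →* A).ker ∣ p ^ Group.rank A := by
  have h1 : (powMonoidHom p : A →* A).range.index = Nat.card (powMonoidHom p : A →* A).ker :=
    Subgroup.index_range
  rw [← h1]
  have h2 : Nat.card (A ⧸ (powMonoidHom p : A →* A).range) ∣
      p ^ Group.rank (A ⧸ (powMonoidHom p : A →* A).range) := by
    apply card_dvd_exponent_pow_rank'
    intro w
    obtain ⟨x, rfl⟩ := QuotientGroup.mk_surjective w
    rw [← QuotientGroup.mk_pow, QuotientGroup.eq_one_iff]
    exact ⟨x, rfl⟩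
  have h3 : Group.rank (A ⧸ (powMonoidHom p : A →* A).range) ≤ Group.rank A :=
    Group.rank_le_of_surjective (QuotientGroup.mk' _) (QuotientGroup.mk'_surjective _)
  exact h2.trans (pow_dvd_pow p h3)

end Cfsg.Agent.Helper6
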