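import Mathlib
import Cfsg.Agent.Helper6.DihSylow2

set_option autoImplicit false

namespace Cfsg.Agent.Helper6

variable {G : Type*} [Group G]

/-- The four-group spanned by two commuting involutions. -/
def kleinOfInvol (a b : G) (haa : a * a = 1) (hbb : b * b = 1) (hab : a * b = b * a) :
    Subgroup G where
  carrier := {x | x = 1 ∨ x = a ∨ x = b ∨ x = a * b}
  mul_mem' := by
    rintro x y (rfl | rfl | rfl | rfl) (rfl | rfl | rfl | rfl)
    · exact Or.inl (mul_one 1)
    · exact Or.inr (Or.inl (one_mul _))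
    · exact Or.inr (Or.inr (Or.inl (one_mul _)))
    · exact Or.inr (Or.inr (Or.inr (one_mul _)))
    · exact Or.inr (Or.inl (mul_one _))
    · exact Or.inl haa
    · exact Or.inr (Or.inr (Or.inr rfl))
    · exact Or.inr (Or.inr (Or.inl (by rw [← mul_assoc, haa, one_mul])))
    · exact Or.inr (Or.inr (Or.inl (mul_one _)))
    · exact Or.inr (Or.inr (Or.inr hab.symm))
    · exact Or.inl hbb
    · exact Or.inr (Or.inl (by rw [hab, ← mul_assoc, hbb, one_mul]))
    · exact Or.inr (Or.inr (Or.inr (mul_one _)))
    · exact Or.inr (Or.inr (Or.inl (by rw [hab, mul_assoc, haa, mul_one])))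
    · exact Or.inr (Or.inl (by rw [mul_assoc, hbb, mul_one]))
    · refine Or.inl ?_
      calc a * b * (a * b) = a * (b * a) * b := by group
        _ = a * (a * b) * b := by rw [hab]
        _ = (a * a) * (b * b) := by group
        _ = 1 := by rw [haa, hbb, one_mul]
  one_mem' := Or.inl rfl
  inv_mem' := by
    have ha' : a⁻¹ = a := inv_eq_of_mul_eq_one_left haa
    have hb' : b⁻¹ = b := inv_eq_of_mul_eq_one_left hbb
    rintro x (rfl | rfl | rfl | rfl)
    · exact Or.inl inv_one
    · exact Or.inr (Or.inl ha')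
    · exact Or.inr (Or.inr (Or.inl hb'))
    · exact Or.inr (Or.inr (Or.inr (by rw [mul_inv_rev, ha', hb', hab])))

theorem mem_kleinOfInvol (a b : G) (haa : a * a = 1) (hbb : b * b = 1) (hab : a * b = b * a)
    (x : G) : x ∈ kleinOfInvol a b haa hbb hab ↔ x = 1 ∨ x = a ∨ x = b ∨ x = a * b := Iff.rfl

theorem isKleinFour_kleinOfInvol (a b : G) (haa : a * a = 1) (hbb : b * b = 1)
    (hab : a * b = b * a) (ha1 : a ≠ 1) (hb1 : b ≠ 1) (hne : a ≠ b) :
    IsKleinFour (kleinOfInvol a b haa hbb hab) := by
  have hset : ((kleinOfInvol a b haa hbb hab : Subgroup G) : Set G) = {1, a, b, a * b} := by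
    ext x
    simp only [SetLike.mem_coe, mem_kleinOfInvol, Set.mem_insert_iff, Set.mem_singleton_iff]
  have h1 : (1 : G) ∉ ({a, b, a * b} : Set G) := by
    simp only [Set.mem_insert_iff, Set.mem_singleton_iff, not_or]
    refine ⟨fun h => ha1 h.symm, fun h => hb1 h.symm, fun h => hne ?_⟩
    have h0 : a = a * b * b := by rw [mul_assoc, hbb, mul_one]
    rw [h0, ← h, one_mul]
  have h3 : ({a, b, a * b} : Set G).ncard = 3 := by
    refine Set.ncard_eq_three.mpr ⟨a, b, a * b, hne, fun h => hb1 ?_, fun h => ha1 ?_, rfl⟩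
    · exact (mul_eq_left.mp h.symm)
    · exact (mul_eq_right.mp h.symm)
  have hcard : Nat.card (kleinOfInvol a b haa hbb hab) = 4 := by
    have h0 : Nat.card ((kleinOfInvol a b haa hbb hab : Subgroup G) : Set G)
        = ((kleinOfInvol a b haa hbb hab : Subgroup G) : Set G).ncard := Nat.card_coe_set_eq _
    have h4 : ((kleinOfInvol a b haa hbb hab : Subgroup G) : Set G).ncard = 4 := by
      rw [hset, Set.ncard_insert_of_notMem h1 (Set.toFinite _), h3]
    exact h0.trans h4
  have hexp : Monoid.exponent (kleinOfInvol a b haa hbb hab) = 2 := by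
    have h5 : Monoid.exponent (kleinOfInvol a b haa hbb hab) ∣ 2 := by
      apply Monoid.exponent_dvd_of_forall_pow_eq_one
      rintro ⟨x, hx⟩
      apply Subtype.ext
      simp only [Subgroup.coe_pow, Subgroup.coe_one]
      rw [pow_two]
      rcases hx with rfl | rfl | rfl | rfl
      · exact mul_one 1
      · exact haa
      · exact hbb
      · calc a * b * (a * b) = a * (b * a) * b := by group
          _ = a * (a * b) * b := by rw [hab]
          _ = (a * a) * (b * b) := by group
          _ = 1 := by rw [haa, hbb, one_mul]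
    have h6 : Monoid.exponent (kleinOfInvol a b haa hbb hab) ≠ 1 := by
      intro h
      have hss := Monoid.exp_eq_one_iff.mp h
      have h7 : (⟨a, Or.inr (Or.inl rfl)⟩ : kleinOfInvol a b haa hbb hab) = 1 :=
        Subsingleton.elim _ _
      exact ha1 (congrArg Subtype.val h7)
    rcases (Nat.dvd_prime Nat.prime_two).mp h5 with h | h
    · exact absurd h h6
    · exact h
  exact { card_four := hcard, exponent_two := hexp }

/-- If `3` divides `|N(U) : C(U)|` for a four-group `U`, all involutions of `U` are conjugate. -/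
theorem kleinFour_conj_of_three_dvd [Finite G] (U : Subgroup G) (hU : IsKleinFour U)
    (h3 : 3 ∣ (Subgroup.centralizer (U : Set G)).relIndex (Subgroup.normalizer (U : Set G)))
    (a b : G) (ha : a ∈ U) (hb : b ∈ U) (ha1 : a ≠ 1) (hb1 : b ≠ 1) : IsConj a b := by
  classical
  haveI : Fact (Nat.Prime 3) := ⟨Nat.prime_three⟩
  haveI := centralizer_subgroupOf_normalizer_normal U
  have hcard : 3 ∣ Nat.card (↥(Subgroup.normalizer (U : Set G)) ⧸
      (Subgroup.centralizer (U : Set G)).subgroupOf (Subgroup.normalizer (U : Set G))) := by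
    rw [← Subgroup.index_eq_card]; exact h3
  obtain ⟨xbar, hx⟩ := exists_prime_orderOf_dvd_card' 3 hcard
  obtain ⟨g, rfl⟩ := QuotientGroup.mk_surjective xbar
  have hg1 : g ∉ (Subgroup.centralizer (U : Set G)).subgroupOf
      (Subgroup.normalizer (U : Set G)) := by
    intro h
    have h0 : (g : ↥(Subgroup.normalizer (U : Set G)) ⧸
        (Subgroup.centralizer (U : Set G)).subgroupOf (Subgroup.normalizer (U : Set G))) = 1 :=
      (QuotientGroup.eq_one_iff g).mpr h
    rw [h0, orderOf_one] at hx
    omega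
  have hg3 : g ^ 3 ∈ (Subgroup.centralizer (U : Set G)).subgroupOf
      (Subgroup.normalizer (U : Set G)) := by
    rw [← QuotientGroup.eq_one_iff, QuotientGroup.mk_pow, ← hx]
    exact pow_orderOf_eq_one _
  obtain ⟨g, hgN⟩ := g
  rw [Subgroup.mem_subgroupOf] at hg1 hg3
  have hg1' : g ∉ Subgroup.centralizer (U : Set G) := hg1
  have hg3' : g ^ 3 ∈ Subgroup.centralizer (U : Set G) := by simpa using hg3
  have hgU : ∀ x ∈ U, g * x * g⁻¹ ∈ U := fun x hx =>
    (Subgroup.mem_normalizer_iff.mp hgN x).mp hx
  have hcube : ∀ x ∈ U, g * (g * (g * x * g⁻¹) * g⁻¹) * g⁻¹ = x := by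
    intro x hx
    have h0 := Subgroup.mem_centralizer_iff.mp hg3' x hx
    have e3 : g ^ 3 = g * g * g := by simp [pow_succ]
    rw [e3] at h0
    calc g * (g * (g * x * g⁻¹) * g⁻¹) * g⁻¹ = (g * g * g * x) * (g * g * g)⁻¹ := by group
      _ = (x * (g * g * g)) * (g * g * g)⁻¹ := by rw [h0]
      _ = x := by group
  have hsq : ∀ x ∈ U, x * x = 1 := by
    intro x hx
    have h0 := IsKleinFour.mul_self (⟨x, hx⟩ : U)
    exact congrArg Subtype.val h0
  -- g fixes no involution of U
  have hnofix : ∀ t ∈ U, t ≠ 1 → g * t * g⁻¹ ≠ t := by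
    intro t htU ht1 hfix
    apply hg1'
    rw [Subgroup.mem_centralizer_iff]
    have key : ∀ x ∈ U, g * x * g⁻¹ = x := by
      intro x hx
      by_contra hne
      have hx1 : x ≠ 1 := by
        rintro rfl
        apply hne
        group
      have hxt : x ≠ t := by
        rintro rfl
        exact hne hfix
      have hy1 : g * x * g⁻¹ ≠ 1 := by
        intro h
        apply hx1
        have h0 : x = g⁻¹ * (g * x * g⁻¹) * g := by group
        rw [h0, h]
        group
      have hyt : g * x * g⁻¹ ≠ t := by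
        intro h
        apply hxt
        have h1 : g * x * g⁻¹ = g * t * g⁻¹ := h.trans hfix.symm
        have h2 : x = g⁻¹ * (g * x * g⁻¹) * g := by group
        rw [h2, h1]
        group
      have h4 : (⟨g * x * g⁻¹, hgU x hx⟩ : U) = ⟨x, hx⟩ * ⟨t, htU⟩ :=
        IsKleinFour.eq_mul_of_ne_all (x := (⟨x, hx⟩ : U)) (y := (⟨t, htU⟩ : U))
          (fun h => hx1 (congrArg Subtype.val h)) (fun h => ht1 (congrArg Subtype.val h))
          (fun h => hxt (congrArg Subtype.val h)) (fun h => hy1 (congrArg Subtype.val h))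
          (fun h => hne (congrArg Subtype.val h)) (fun h => hyt (congrArg Subtype.val h))
      have h5 : g * x * g⁻¹ = x * t := congrArg Subtype.val h4
      have h6 : g * (g * x * g⁻¹) * g⁻¹ = x := by
        rw [h5]
        calc g * (x * t) * g⁻¹ = (g * x * g⁻¹) * (g * t * g⁻¹) := by group
          _ = x * t * t := by rw [h5, hfix]
          _ = x := by rw [mul_assoc, hsq t htU, mul_one]
      have h7 := hcube x hx
      rw [h6] at h7
      exact hne h7
    intro x hx
    have h1 := key x hx
    calc x * g = (g * x * g⁻¹) * g := by rw [h1]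
      _ = g * x := by group
  by_cases hab : a = b
  · rw [hab]
  · have hga1 : g * a * g⁻¹ ≠ 1 := by
      intro h
      apply ha1
      have h0 : a = g⁻¹ * (g * a * g⁻¹) * g := by group
      rw [h0, h]
      group
    have hgb1 : g * b * g⁻¹ ≠ 1 := by
      intro h
      apply hb1
      have h0 : b = g⁻¹ * (g * b * g⁻¹) * g := by group
      rw [h0, h]
      group
    by_cases h1 : g * a * g⁻¹ = b
    · exact isConj_iff.mpr ⟨g, h1⟩
    · -- then g a g⁻¹ = a b, and g b g⁻¹ = a
      have h4 : (⟨g * a * g⁻¹, hgU a ha⟩ : U) = ⟨a, ha⟩ * ⟨b, hb⟩ :=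
        IsKleinFour.eq_mul_of_ne_all (x := (⟨a, ha⟩ : U)) (y := (⟨b, hb⟩ : U))
          (fun h => ha1 (congrArg Subtype.val h)) (fun h => hb1 (congrArg Subtype.val h))
          (fun h => hab (congrArg Subtype.val h)) (fun h => hga1 (congrArg Subtype.val h))
          (fun h => hnofix a ha ha1 (congrArg Subtype.val h))
          (fun h => h1 (congrArg Subtype.val h))
      have h5 : g * a * g⁻¹ = a * b := congrArg Subtype.val h4
      by_cases h2 : g * b * g⁻¹ = a
      · exact (isConj_iff.mpr ⟨g, h2⟩).symm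
      · exfalso
        have h6 : (⟨g * b * g⁻¹, hgU b hb⟩ : U) = ⟨a, ha⟩ * ⟨b, hb⟩ :=
          IsKleinFour.eq_mul_of_ne_all (x := (⟨a, ha⟩ : U)) (y := (⟨b, hb⟩ : U))
            (fun h => ha1 (congrArg Subtype.val h)) (fun h => hb1 (congrArg Subtype.val h))
            (fun h => hab (congrArg Subtype.val h)) (fun h => hgb1 (congrArg Subtype.val h))
            (fun h => h2 (congrArg Subtype.val h))
            (fun h => hnofix b hb hb1 (congrArg Subtype.val h))
        have h7 : g * b * g⁻¹ = a * b := congrArg Subtype.val h6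
        apply hab
        have h8 : g * a * g⁻¹ = g * b * g⁻¹ := h5.trans h7.symm
        have h9 : a = g⁻¹ * (g * a * g⁻¹) * g := by group
        rw [h9, h8]
        group

end Cfsg.Agent.Helper6
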