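import Mathlib
import Cfsg.Agent.Helper6.Gaschutz

set_option autoImplicit false

namespace Cfsg.Agent.Helper6

universe u

section PPart

variable {E : Type*} [Group E]

/-- The `p`-primary part of an abelian subgroup. -/
def pPart (N : Subgroup E) (hN : ∀ a ∈ N, ∀ b ∈ N, a * b = b * a) (p : ℕ) : Subgroup E where
  carrier := {b | b ∈ N ∧ ∃ k : ℕ, b ^ p ^ k = 1}
  mul_mem' := by
    rintro a b ⟨ha, k, hk⟩ ⟨hb, l, hl⟩
    refine ⟨N.mul_mem ha hb, k + l, ?_⟩
    have hc : Commute a b := hN a ha b hb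
    rw [hc.mul_pow, pow_add, pow_mul, hk, one_pow, one_mul, mul_comm (p ^ k), pow_mul, hl,
      one_pow]
  one_mem' := ⟨N.one_mem, 0, one_pow _⟩
  inv_mem' := by
    rintro a ⟨ha, k, hk⟩
    exact ⟨N.inv_mem ha, k, by rw [inv_pow, hk, inv_one]⟩

theorem pPart_le (N : Subgroup E) (hN : ∀ a ∈ N, ∀ b ∈ N, a * b = b * a) (p : ℕ) :
    pPart N hN p ≤ N := fun _ h => h.1

theorem pPart_normal (N : Subgroup E) [hNn : N.Normal] (hN : ∀ a ∈ N, ∀ b ∈ N, a * b = b * a)
    (p : ℕ) : (pPart N hN p).Normal := by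
  constructor
  rintro b ⟨hb, k, hk⟩ g
  refine ⟨hNn.conj_mem b hb g, k, ?_⟩
  rw [conj_pow, hk]; group

theorem pPart_isPGroup (N : Subgroup E) (hN : ∀ a ∈ N, ∀ b ∈ N, a * b = b * a) (p : ℕ) :
    IsPGroup p (pPart N hN p) := by
  rintro ⟨b, hb, k, hk⟩
  exact ⟨k, Subtype.ext hk⟩

theorem pPart_ne_bot [Finite E] (N : Subgroup E) (hN : ∀ a ∈ N, ∀ b ∈ N, a * b = b * a)
    (p : ℕ) [Fact p.Prime] (hp : p ∣ Nat.card N) : pPart N hN p ≠ ⊥ := by
  obtain ⟨x, hx⟩ := exists_prime_orderOf_dvd_card' p hp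
  intro h
  have h0 : (x : E) ^ p = 1 := by
    have := pow_orderOf_eq_one x
    rw [hx] at this
    simpa using congrArg Subtype.val this
  have h1 : (x : E) ∈ pPart N hN p := ⟨x.2, 1, by rw [pow_one]; exact h0⟩
  rw [h, Subgroup.mem_bot] at h1
  have h2 : x = 1 := Subtype.ext h1
  rw [h2, orderOf_one] at hx
  exact (Fact.out : p.Prime).one_lt.ne hx

theorem mem_pPart_of_pow_mem (N : Subgroup E) (hN : ∀ a ∈ N, ∀ b ∈ N, a * b = b * a) (p : ℕ)
    {b : E} (hb : b ∈ N) (h : b ^ p ∈ pPart N hN p) : b ∈ pPart N hN p := by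
  obtain ⟨-, k, hk⟩ := h
  exact ⟨hb, k + 1, by rw [pow_succ', pow_mul]; exact hk⟩

end PPart

/-- **Gaschütz, local-to-global**: a homomorphism `V : Γ →* E'` lifts through a surjection
`π : E →* E'` with abelian kernel as soon as, for every prime `p`, its restriction to some
`p`-subgroup of index prime to `p` lifts. -/
theorem gaschutz_lift_local {Γ E' : Type*} [Group Γ] [Group E'] [Finite Γ] :
    ∀ (n : ℕ) (E : Type u) [Group E] [Finite E], Nat.card E = n →
    ∀ (π : E →* E'), Function.Surjective π → (∀ a ∈ π.ker, ∀ b ∈ π.ker, a * b = b * a) →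
    ∀ V : Γ →* E', (∀ p : ℕ, p.Prime → ∃ S : Subgroup Γ, IsPGroup p S ∧ ¬ p ∣ S.index ∧
      ∃ ψ : S →* E, ∀ x : S, π (ψ x) = V x) →
    ∃ f : Γ →* E, ∀ g, π (f g) = V g := by
  intro n
  induction n using Nat.strong_induction_on with
  | _ n ih =>
    intro E _ _ hn π hπ hB V hloc
    by_cases hk : π.ker = ⊥
    · have hinj : Function.Injective π := (MonoidHom.ker_eq_bot_iff π).mp hk
      let eq := MulEquiv.ofBijective π ⟨hinj, hπ⟩
      refine ⟨eq.symm.toMonoidHom.comp V, fun g => ?_⟩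
      show π (eq.symm (V g)) = V g
      exact eq.apply_symm_apply (V g)
    · have hcard : Nat.card π.ker ≠ 1 := by
        intro h
        exact hk (Subgroup.card_eq_one.mp h)
      obtain ⟨p, hp, hpd⟩ := Nat.exists_prime_and_dvd hcard
      haveI : Fact p.Prime := ⟨hp⟩
      obtain ⟨Bp, hBp⟩ : ∃ Bp, Bp = pPart π.ker hB p := ⟨_, rfl⟩
      haveI : Bp.Normal := by rw [hBp]; exact pPart_normal π.ker hB p
      have hBple : Bp ≤ π.ker := by rw [hBp]; exact pPart_le _ _ _
      have hBpne : Bp ≠ ⊥ := by rw [hBp]; exact pPart_ne_bot π.ker hB p hpd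
      let ρ : E →* E ⧸ Bp := QuotientGroup.mk' Bp
      have hρ : Function.Surjective ρ := QuotientGroup.mk'_surjective Bp
      have hρker : ρ.ker = Bp := QuotientGroup.ker_mk' Bp
      let π₁ : E ⧸ Bp →* E' := QuotientGroup.lift Bp π hBple
      have hπ₁ρ : ∀ x : E, π₁ (ρ x) = π x := fun x => QuotientGroup.lift_mk Bp hBple x
      have hπ₁ : Function.Surjective π₁ := fun y => by
        obtain ⟨x, rfl⟩ := hπ y
        exact ⟨ρ x, hπ₁ρ x⟩
      have hker₁ : ∀ a ∈ π₁.ker, ∃ x ∈ π.ker, ρ x = a := by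
        intro a ha
        obtain ⟨x, rfl⟩ := hρ a
        refine ⟨x, ?_, rfl⟩
        rw [MonoidHom.mem_ker] at ha ⊢
        rw [← hπ₁ρ]; exact ha
      have hB₁ : ∀ a ∈ π₁.ker, ∀ b ∈ π₁.ker, a * b = b * a := by
        intro a ha b hb
        obtain ⟨x, hx, rfl⟩ := hker₁ a ha
        obtain ⟨y, hy, rfl⟩ := hker₁ b hb
        rw [← map_mul, ← map_mul, hB x hx y hy]
      have hlt : Nat.card (E ⧸ Bp) < n := by
        have h1 := Subgroup.card_eq_card_quotient_mul_card_subgroup Bp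
        have h2 : 1 < Nat.card Bp := Bp.one_lt_card_iff_ne_bot.mpr hBpne
        have h3 : 0 < Nat.card (E ⧸ Bp) := Nat.card_pos
        rw [← hn, h1]
        nlinarith
      have hloc₁ : ∀ q : ℕ, q.Prime → ∃ S : Subgroup Γ, IsPGroup q S ∧ ¬ q ∣ S.index ∧
          ∃ ψ : S →* E ⧸ Bp, ∀ x : S, π₁ (ψ x) = V x := by
        intro q hq
        obtain ⟨S, hS1, hS2, ψ, hψ⟩ := hloc q hq
        exact ⟨S, hS1, hS2, ρ.comp ψ, fun x => by rw [MonoidHom.comp_apply, hπ₁ρ]; exact hψ x⟩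
      obtain ⟨V₁, hV₁⟩ := ih _ hlt (E ⧸ Bp) rfl π₁ hπ₁ hB₁ V hloc₁
      obtain ⟨S, hS1, hS2, ψ, hψ⟩ := hloc p hp
      have hcop₁ : (Nat.card π₁.ker).Coprime p := by
        rw [Nat.coprime_comm, Nat.Prime.coprime_iff_not_dvd hp]
        intro hd
        obtain ⟨a, ha⟩ := exists_prime_orderOf_dvd_card' p hd
        obtain ⟨x, hx, hxa⟩ := hker₁ a.1 a.2
        have h0 : (a : E ⧸ Bp) ^ p = 1 := by
          have := pow_orderOf_eq_one a
          rw [ha] at this
          simpa using congrArg Subtype.val this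
        have h1 : x ^ p ∈ Bp := by
          rw [← hρker, MonoidHom.mem_ker, map_pow, hxa]
          exact h0
        have h2 : x ∈ Bp := by
          rw [hBp] at h1 ⊢
          exact mem_pPart_of_pow_mem _ _ _ hx h1
        have h3 : (a : E ⧸ Bp) = 1 := by
          rw [← hxa]; rw [← hρker] at h2; exact h2
        have h4 : a = 1 := Subtype.ext h3
        rw [h4, orderOf_one] at ha
        exact hp.one_lt.ne ha
      obtain ⟨k, hk⟩ := IsPGroup.iff_card.mp hS1
      have hcop₂ : (Nat.card π₁.ker).Coprime ((⊥ : Subgroup S).index) := by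
        rw [Subgroup.index_bot, hk]; exact Nat.Coprime.pow_right k hcop₁
      obtain ⟨m₁, hm₁⟩ := exists_root_exponent π₁.ker _ hcop₂
      obtain ⟨b, hb, hconj⟩ := gaschutz_conj (⊥ : Subgroup S) π₁ hB₁ m₁
        (fun c hc => by simpa using congrArg Subtype.val (hm₁ ⟨c, hc⟩))
        (ρ.comp ψ) (V₁.comp S.subtype)
        (fun x => by
          rw [MonoidHom.comp_apply, MonoidHom.comp_apply, hπ₁ρ, hV₁]; exact (hψ x).symm)
        (fun x hx => by
          rw [Subgroup.mem_bot] at hx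
          rw [hx, map_one, map_one])
      obtain ⟨b', rfl⟩ := hρ b
      let ψ' : S →* E := (MulAut.conj b').toMonoidHom.comp ψ
      have hψ' : ∀ x : S, ρ (ψ' x) = V₁ x := by
        intro x
        have h0 := hconj x
        show ρ (b' * ψ x * b'⁻¹) = V₁ x
        rw [map_mul, map_mul, map_inv]
        exact h0.symm
      have hcop₃ : (Nat.card ρ.ker).Coprime S.index := by
        rw [hρker]
        obtain ⟨j, hj⟩ := IsPGroup.iff_card.mp (pPart_isPGroup π.ker hB p)
        rw [hBp, hj]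
        exact Nat.Coprime.pow_left j ((Nat.Prime.coprime_iff_not_dvd hp).mpr hS2)
      obtain ⟨m₂, hm₂⟩ := exists_root_exponent ρ.ker S.index hcop₃
      obtain ⟨f, hf⟩ := gaschutz_lift S ρ hρ
        (by rw [hρker]; intro a ha c hc; exact hB a (hBple ha) c (hBple hc)) m₂
        (fun c hc => by simpa using congrArg Subtype.val (hm₂ ⟨c, hc⟩)) V₁ ψ' hψ'
      exact ⟨f, fun g => by rw [← hπ₁ρ, hf, hV₁]⟩

/-- A partial complement over a subgroup of the quotient gives a partial section. -/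
theorem exists_partial_section {G : Type*} [Group G] (K : Subgroup G) [K.Normal]
    (A : Subgroup G) (hAK : A ⊓ K = ⊥) (S : Subgroup (G ⧸ K))
    (hKA : A ⊔ K = S.comap (QuotientGroup.mk' K)) :
    ∃ ψ : S →* G, ∀ x : S, QuotientGroup.mk' K (ψ x) = x := by
  let θ : A →* G ⧸ K := (QuotientGroup.mk' K).comp A.subtype
  have hθ : Function.Injective θ := by
    rw [← MonoidHom.ker_eq_bot_iff, eq_bot_iff]
    intro a ha
    rw [MonoidHom.mem_ker] at ha
    have h1 : (a : G) ∈ K := (QuotientGroup.eq_one_iff _).mp ha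
    have h2 : (a : G) ∈ A ⊓ K := Subgroup.mem_inf.mpr ⟨a.2, h1⟩
    rw [hAK, Subgroup.mem_bot] at h2
    exact Subtype.ext h2
  have hSle : S ≤ θ.range := by
    intro x hx
    obtain ⟨u, rfl⟩ := QuotientGroup.mk'_surjective K x
    have hu : u ∈ K ⊔ A := by rw [sup_comm, hKA]; exact hx
    rw [← SetLike.mem_coe, Subgroup.normal_mul] at hu
    obtain ⟨k, hk, a, ha, rfl⟩ := hu
    refine ⟨⟨a, ha⟩, ?_⟩
    show ((a : G) : G ⧸ K) = ((k * a : G) : G ⧸ K)
    rw [QuotientGroup.mk_mul, (QuotientGroup.eq_one_iff k).mpr hk, one_mul]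
  refine ⟨A.subtype.comp
    ((MonoidHom.ofInjective hθ).symm.toMonoidHom.comp (Subgroup.inclusion hSle)), ?_⟩
  intro x
  exact MonoidHom.apply_ofInjective_symm hθ (Subgroup.inclusion hSle x)

end Cfsg.Agent.Helper6
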