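import Mathlib
import Cfsg.Agent.Helper6.M2

set_option autoImplicit false

namespace Cfsg.Agent.Helper6.M2

/-- binary search trees of keys -/
inductive KT : Type
  | leaf : KT
  | node : KT → ℕ → KT → KT

def KT.mem : KT → ℕ → Bool
  | .leaf, _ => false
  | .node l k r, n => bif Nat.blt n k then l.mem n else bif Nat.blt k n then r.mem n else true

def KT.toList : KT → List ℕ
  | .leaf => []
  | .node l k r => l.toList ++ k :: r.toList

theorem KT.mem_sound (t : KT) (n : ℕ) (h : t.mem n = true) : n ∈ t.toList := by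
  induction t with
  | leaf => simp [KT.mem] at h
  | node l k r ihl ihr =>
    simp only [KT.mem] at h
    simp only [KT.toList, List.mem_append, List.mem_cons]
    cases h1 : Nat.blt n k with
    | true =>
      rw [h1, cond_true] at h
      left; exact ihl h
    | false =>
      rw [h1, cond_false] at h
      cases h2 : Nat.blt k n with
      | true =>
        rw [h2, cond_true] at h
        right; right; exact ihr h
      | false =>
        right; left
        have e1 : ¬ n < k := by
          intro hlt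
          have : Nat.blt n k = true := by rw [Nat.blt_eq]; exact hlt
          rw [h1] at this; exact Bool.false_ne_true this
        have e2 : ¬ k < n := by
          intro hlt
          have : Nat.blt k n = true := by rw [Nat.blt_eq]; exact hlt
          rw [h2] at this; exact Bool.false_ne_true this
        omega

def enc (p : ℕ) (c : List ℕ) : ℕ := ((g c 0 * p + g c 1) * p + g c 2) * p + g c 3

def dec (p : ℕ) (n : ℕ) : List ℕ := [n / (p * p * p) % p, n / (p * p) % p, n / p % p, n % p]

/-- force the evaluation of a number before it is used (it is the identity) -/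
def force {α : Type} (n : ℕ) (f : ℕ → α) : α :=
  match n with
  | 0 => f 0
  | k + 1 => f (k + 1)

theorem force_eq {α : Type} (n : ℕ) (f : ℕ → α) : force n f = f n := by
  cases n <;> rfl

def memC (t : KT) (p : ℕ) (c : List ℕ) : Bool :=
  force (enc p c) (fun m => t.mem m && (dec p m == c))

def codes (t : KT) (p : ℕ) : List (List ℕ) := t.toList.map (dec p)

theorem memC_sound (t : KT) (p : ℕ) (c : List ℕ) (h : memC t p c = true) : c ∈ codes t p := by
  unfold memC at h
  rw [force_eq, Bool.and_eq_true, beq_iff_eq] at h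
  exact List.mem_map.mpr ⟨enc p c, KT.mem_sound t _ h.1, h.2⟩

theorem clos_of_all (t : KT) (p : ℕ) (c : List ℕ)
    (h : (codes t p).all (fun d => memC t p (mulC p c d)) = true) :
    ∀ d ∈ codes t p, mulC p c d ∈ codes t p := by
  intro d hd
  exact memC_sound t p _ (List.all_eq_true.mp h d hd)

def sortedB : List ℕ → Bool
  | [] => true
  | [_] => true
  | a :: b :: t => Nat.blt a b && sortedB (b :: t)

theorem sortedB_tail (a : ℕ) (l : List ℕ) (h : sortedB (a :: l) = true) : sortedB l = true := by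
  cases l with
  | nil => rfl
  | cons b t =>
    simp only [sortedB, Bool.and_eq_true] at h
    exact h.2

theorem sortedB_lb : ∀ (l : List ℕ) (a : ℕ), sortedB (a :: l) = true → ∀ x ∈ l, a < x := by
  intro l
  induction l with
  | nil => intro a _ x hx; simp at hx
  | cons b t ih =>
    intro a h x hx
    simp only [sortedB, Bool.and_eq_true, Nat.blt_eq] at h
    rcases List.mem_cons.mp hx with rfl | hx
    · exact h.1
    · exact lt_trans h.1 (ih b h.2 x hx)

theorem sortedB_nodup : ∀ l : List ℕ, sortedB l = true → l.Nodup := by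
  intro l
  induction l with
  | nil => intro _; exact List.nodup_nil
  | cons a t ih =>
    intro h
    rw [List.nodup_cons]
    refine ⟨fun hmem => ?_, ih (sortedB_tail a t h)⟩
    exact lt_irrefl a (sortedB_lb t a h a hmem)

theorem toMat_dec_inj (p : ℕ) (n m : ℕ) (h : toMat p (dec p n) = toMat p (dec p m)) :
    dec p n = dec p m := by
  have h00 := congrFun (congrFun h 0) 0
  have h01 := congrFun (congrFun h 0) 1
  have h10 := congrFun (congrFun h 1) 0
  have h11 := congrFun (congrFun h 1) 1
  simp only [toMat, dec, g, Matrix.of_apply, Matrix.cons_val', Matrix.cons_val_zero,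
    Matrix.cons_val_one, Matrix.cons_val_fin_one, List.getD_cons_zero, List.getD_cons_succ,
    ZMod.natCast_eq_natCast_iff', Nat.mod_mod] at h00 h01 h10 h11
  simp only [dec]
  rw [h00, h01, h10, h11]

theorem codes_nodup (t : KT) (p : ℕ) (hs : sortedB t.toList = true)
    (he : (codes t p).map (enc p) = t.toList) : ((codes t p).map (toMat p)).Nodup := by
  have h1 : (codes t p).Nodup := by
    apply List.Nodup.of_map (enc p)
    rw [he]; exact sortedB_nodup _ hs
  apply List.Nodup.map_on _ h1
  intro x hx y hy hxy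
  unfold codes at hx hy
  obtain ⟨n, -, rfl⟩ := List.mem_map.mp hx
  obtain ⟨m, -, rfl⟩ := List.mem_map.mp hy
  exact toMat_dec_inj p n m hxy

theorem card_of_codes (p : ℕ) (K : Subgroup (GL2 p)) (L : List (List ℕ))
    (hcode : ∀ k ∈ K, ∃ c ∈ L, toMat p c = k.val)
    (hreal : ∀ c ∈ L, ∃ k ∈ K, k.val = toMat p c)
    (hnd : (L.map (toMat p)).Nodup) : Nat.card K = L.length := by
  classical
  have hinj : Function.Injective (fun k : K => ((k : GL2 p).val : Matrix (Fin 2) (Fin 2) (ZMod p))) := by
    intro a b h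
    exact Subtype.ext (Units.ext h)
  have hrange : Set.range (fun k : K => ((k : GL2 p).val : Matrix (Fin 2) (Fin 2) (ZMod p))) =
      ((L.map (toMat p)).toFinset : Set (Matrix (Fin 2) (Fin 2) (ZMod p))) := by
    ext m
    simp only [Set.mem_range, Finset.mem_coe, List.mem_toFinset, List.mem_map]
    constructor
    · rintro ⟨k, rfl⟩
      exact hcode k.1 k.2
    · rintro ⟨c, hc, rfl⟩
      obtain ⟨k, hk, hkv⟩ := hreal c hc
      exact ⟨⟨k, hk⟩, hkv⟩
  rw [← Nat.card_range_of_injective hinj, hrange, Nat.card_coe_set_eq, Set.ncard_coe_finset,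
    List.toFinset_card_of_nodup hnd, List.length_map]

theorem regular_of_codes' (p : ℕ) [Fact p.Prime] (K : Subgroup (GL2 p)) (L : List (List ℕ))
    (hcode : ∀ k ∈ K, ∃ c ∈ L, toMat p c = k.val)
    (hreal : ∀ c ∈ L, ∃ k ∈ K, k.val = toMat p c)
    (hfix : ∀ c ∈ L, c = oneC ∨ fixdet p c % p ≠ 0)
    (hnd : (L.map (toMat p)).Nodup) (hlen : L.length = p ^ 2 - 1) :
    Nat.card K = p ^ 2 - 1 ∧ ∀ v w : Fin 2 → ZMod p, v ≠ 0 → w ≠ 0 →
      ∃! h : K, Matrix.mulVec ((h : GL2 p) : Matrix (Fin 2) (Fin 2) (ZMod p)) v = w := by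
  have hp : p.Prime := Fact.out
  haveI : NeZero p := ⟨hp.ne_zero⟩
  have hcard : Nat.card K = p ^ 2 - 1 := by rw [card_of_codes p K L hcode hreal hnd, hlen]
  have semireg : ∀ k ∈ K, ∀ v : Fin 2 → ZMod p, v ≠ 0 → Matrix.mulVec k.val v = v → k = 1 := by
    intro k hk v hv hkv
    obtain ⟨c, hc, hck⟩ := hcode k hk
    rcases hfix c hc with h1 | h1
    · apply Units.ext
      rw [← hck, h1, toMat_one]; rfl
    · exfalso
      apply hv
      have hdet : (k.val - 1).det ≠ 0 := by
        rw [← hck, ← fixdet_cast, Ne, ZMod.natCast_eq_zero_iff, Nat.dvd_iff_mod_eq_zero]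
        exact h1
      apply Matrix.eq_zero_of_mulVec_eq_zero hdet
      rw [Matrix.sub_mulVec, hkv, Matrix.one_mulVec, sub_self]
  have he1 : (![1, 0] : Fin 2 → ZMod p) ≠ 0 := by
    intro h
    have h0 := congrFun h 0
    simp at h0
  have key : ∀ k1 ∈ K, ∀ k2 ∈ K, ∀ v : Fin 2 → ZMod p, v ≠ 0 →
      Matrix.mulVec k1.val v = Matrix.mulVec k2.val v → k1 = k2 := by
    intro k1 hk1 k2 hk2 v hv h
    have h1 : Matrix.mulVec (k2⁻¹ * k1 : GL2 p).val v = v := by
      rw [Units.val_mul, ← Matrix.mulVec_mulVec, h, Matrix.mulVec_mulVec, ← Units.val_mul,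
        inv_mul_cancel, Units.val_one, Matrix.one_mulVec]
    have h2 := semireg _ (mul_mem (inv_mem hk2) hk1) v hv h1
    calc k1 = k2 * (k2⁻¹ * k1) := by group
      _ = k2 := by rw [h2, mul_one]
  have hbij : Function.Bijective
      (fun k : K => (⟨Matrix.mulVec (k : GL2 p).val ![1, 0], by
        intro h0
        have h1 : Matrix.mulVec ((k : GL2 p)⁻¹ * (k : GL2 p) : GL2 p).val ![1, 0] = 0 := by
          rw [Units.val_mul, ← Matrix.mulVec_mulVec, h0, Matrix.mulVec_zero]
        rw [inv_mul_cancel, Units.val_one, Matrix.one_mulVec] at h1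
        exact he1 h1⟩ : {v : Fin 2 → ZMod p // v ≠ 0})) := by
    apply Function.Injective.bijective_of_nat_card_le
    · intro k1 k2 h
      have h' := congrArg Subtype.val h
      exact Subtype.ext (key _ k1.2 _ k2.2 _ he1 h')
    · rw [hcard, Nat.card_eq_fintype_card, Fintype.card_subtype_compl, Fintype.card_subtype_eq]
      simp [ZMod.card]
  have trans1 : ∀ w : Fin 2 → ZMod p, w ≠ 0 → ∃ k ∈ K, Matrix.mulVec k.val ![1, 0] = w := by
    intro w hw
    obtain ⟨k, hk⟩ := hbij.2 ⟨w, hw⟩
    exact ⟨k.1, k.2, congrArg Subtype.val hk⟩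
  refine ⟨hcard, ?_⟩
  intro v w hv hw
  obtain ⟨kv, hkv, ekv⟩ := trans1 v hv
  obtain ⟨kw, hkw, ekw⟩ := trans1 w hw
  have hmem : kw * kv⁻¹ ∈ K := mul_mem hkw (inv_mem hkv)
  have hvw : Matrix.mulVec (kw * kv⁻¹ : GL2 p).val v = w := by
    rw [← ekv, Matrix.mulVec_mulVec, ← Units.val_mul, inv_mul_cancel_right, ekw]
  refine ⟨⟨kw * kv⁻¹, hmem⟩, hvw, ?_⟩
  intro h' hh'
  exact Subtype.ext (key _ h'.2 _ hmem v hv (hh'.trans hvw.symm))

def mulK (p : ℕ) (c : List ℕ) (m : ℕ) : ℕ := enc p (mulC p c (dec p m))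

theorem dec_mulK (p : ℕ)
    (hde : ∀ a b c d : ℕ, a < p → b < p → c < p → d < p →
      dec p (enc p [a, b, c, d]) = [a, b, c, d]) (hp : 0 < p) (c : List ℕ) (m : ℕ) :
    dec p (mulK p c m) = mulC p c (dec p m) := by
  unfold mulK
  exact hde _ _ _ _ (Nat.mod_lt _ hp) (Nat.mod_lt _ hp) (Nat.mod_lt _ hp) (Nat.mod_lt _ hp)

/-- evaluate a word stored as base-4 digits (digit `i+1` = generator `i`, digit `0` = stop),
returning the key of the product; every intermediate value is forced -/
def evalK (p : ℕ) (gens : List (List ℕ)) : ℕ → ℕ → ℕ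
  | 0, _ => enc p oneC
  | fuel + 1, n =>
    force n (fun n' => bif Nat.beq n' 0 then enc p oneC
      else force (evalK p gens fuel (n' / 4)) (fun m => mulK p (gens.getD (n' % 4 - 1) oneC) m))

theorem real_of_evalK (p : ℕ) (S : Set (GL2 p)) (gens : List (List ℕ))
    (hg : ∀ c ∈ gens, ∃ s ∈ S, s.val = toMat p c)
    (hde : ∀ a b c d : ℕ, a < p → b < p → c < p → d < p →
      dec p (enc p [a, b, c, d]) = [a, b, c, d]) (hp : 1 < p) :
    ∀ (fuel n : ℕ), ∃ k ∈ Subgroup.closure S, k.val = toMat p (dec p (evalK p gens fuel n)) := by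
  have hone : dec p (enc p oneC) = oneC := hde 1 0 0 1 hp (by omega) (by omega) hp
  intro fuel
  induction fuel with
  | zero =>
    intro n
    show ∃ k ∈ Subgroup.closure S, k.val = toMat p (dec p (enc p oneC))
    rw [hone]; exact ⟨1, one_mem _, (toMat_one p).symm⟩
  | succ f ih =>
    intro n
    show ∃ k ∈ Subgroup.closure S, k.val = toMat p (dec p (force n (fun n' =>
      bif Nat.beq n' 0 then enc p oneC
      else force (evalK p gens f (n' / 4)) (fun m => mulK p (gens.getD (n' % 4 - 1) oneC) m))))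
    rw [force_eq]
    cases hn : Nat.beq n 0 with
    | true => rw [cond_true, hone]; exact ⟨1, one_mem _, (toMat_one p).symm⟩
    | false =>
      rw [cond_false, force_eq, dec_mulK p hde (by omega), toMat_mul]
      obtain ⟨k, hk, hkv⟩ := ih (n / 4)
      by_cases hi : n % 4 - 1 < gens.length
      · have hmem : gens.getD (n % 4 - 1) oneC ∈ gens := by
          rw [List.getD_eq_getElem _ _ hi]; exact List.getElem_mem hi
        obtain ⟨s, hs, hsv⟩ := hg _ hmem
        exact ⟨s * k, mul_mem (Subgroup.subset_closure hs) hk, by rw [Units.val_mul, hsv, hkv]⟩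
      · have h1 : gens.getD (n % 4 - 1) oneC = oneC := List.getD_eq_default _ _ (not_lt.mp hi)
        rw [h1, toMat_one, one_mul]
        exact ⟨k, hk, hkv⟩

theorem mainT (p : ℕ) [Fact p.Prime] (S : Set (GL2 p)) (gens : List (List ℕ)) (W : List ℕ)
    (fuel : ℕ) (t : KT)
    (hde : ∀ a b c d : ℕ, a < p → b < p → c < p → d < p →
      dec p (enc p [a, b, c, d]) = [a, b, c, d])
    (hone : memC t p oneC = true)
    (hS : ∀ s ∈ S, ∃ c ci : List ℕ, toMat p c = s.val ∧ toMat p ci = (s⁻¹ : GL2 p).val ∧
      (∀ d ∈ codes t p, mulC p c d ∈ codes t p) ∧ (∀ d ∈ codes t p, mulC p ci d ∈ codes t p))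
    (hg : ∀ c ∈ gens, ∃ s ∈ S, s.val = toMat p c)
    (hW : t.toList = W.map (evalK p gens fuel))
    (hfix : (codes t p).all (fun c => (c == oneC) || (fixdet p c % p != 0)) = true)
    (hs : sortedB t.toList = true)
    (he : (codes t p).map (enc p) = t.toList)
    (hlen : (codes t p).length = p ^ 2 - 1) :
    Nat.card (Subgroup.closure S) = p ^ 2 - 1 ∧ ∀ v w : Fin 2 → ZMod p, v ≠ 0 → w ≠ 0 →
      ∃! h : Subgroup.closure S,
        Matrix.mulVec ((h : GL2 p) : Matrix (Fin 2) (Fin 2) (ZMod p)) v = w := by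
  refine regular_of_codes' p (Subgroup.closure S) (codes t p)
    (code_of_closure p S (codes t p) (memC_sound t p _ hone) hS) ?_ ?_ (codes_nodup t p hs he) hlen
  · intro c hc
    unfold codes at hc
    obtain ⟨n, hn, rfl⟩ := List.mem_map.mp hc
    rw [hW, List.mem_map] at hn
    obtain ⟨w, -, rfl⟩ := hn
    exact real_of_evalK p S gens hg hde (Fact.out : p.Prime).one_lt fuel w
  · intro c hc
    have h := List.all_eq_true.mp hfix c hc
    rw [Bool.or_eq_true, beq_iff_eq, bne_iff_ne] at h
    exact h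

end Cfsg.Agent.Helper6.M2
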