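import Mathlib
import Cfsg.Prelude.Def_Transfer
import Cfsg.Agent.Helper6.FrobNPC

set_option autoImplicit false

namespace Cfsg.Agent.Helper6

open scoped IsMulCommutative in
/-- If `X = O^p(X)` has an abelian Sylow `p`-subgroup `Q`, then no nonidentity element of `Q`
is centralized by `N_X(Q)` (transfer into `Q` is trivial). -/
theorem central_sylow_trivial {X : Type*} [Group X] [Finite X] {p : ℕ} [Fact p.Prime]
    (hX : Cfsg.pResidual p X = ⊤) (Q : Sylow p X) (hQ : IsMulCommutative (Q : Subgroup X))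
    (z : X) (hz : z ∈ (Q : Subgroup X))
    (hc : ∀ n ∈ Subgroup.normalizer ((Q : Subgroup X) : Set X), n * z * n⁻¹ = z) : z = 1 := by
  have hV : ∀ g : X, MonoidHom.transfer (MonoidHom.id (Q : Subgroup X)) g = 1 := by
    have hker : (MonoidHom.transfer (MonoidHom.id (Q : Subgroup X))).ker = ⊤ := by
      rw [eq_top_iff, ← hX]
      unfold Cfsg.pResidual
      rw [Subgroup.closure_le]
      intro g hg
      rw [SetLike.mem_coe, MonoidHom.mem_ker]
      obtain ⟨k, hk⟩ := Q.2 (MonoidHom.transfer (MonoidHom.id (Q : Subgroup X)) g)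
      exact eq_one_of_pow_of_coprime hk
        (Nat.Coprime.coprime_dvd_left (orderOf_map_dvd _ g) hg)
    intro g
    have h0 : g ∈ (MonoidHom.transfer (MonoidHom.id (Q : Subgroup X))).ker := by
      rw [hker]; trivial
    exact h0
  have key : ∀ (k : ℕ) (g₀ : X), g₀⁻¹ * z ^ k * g₀ ∈ (Q : Subgroup X) →
      g₀⁻¹ * z ^ k * g₀ = z ^ k := by
    intro k g₀ hk
    haveI : IsMulCommutative Q := hQ
    obtain ⟨n, hn, hn'⟩ := Q.conj_eq_normalizer_conj_of_mem (z ^ k) g₀ (pow_mem hz k) hk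
    rw [hn']
    have h1 : n⁻¹ * z * n⁻¹⁻¹ = z := hc n⁻¹ (Subgroup.inv_mem _ hn)
    rw [inv_inv] at h1
    have h2 : n⁻¹ * z ^ k * n = (n⁻¹ * z * n) ^ k := by
      have := conj_pow (a := n⁻¹) (b := z) (i := k)
      rw [inv_inv] at this
      exact this.symm
    rw [h2, h1]
  have h2 := MonoidHom.transfer_eq_pow (MonoidHom.id (Q : Subgroup X)) z key
  have h3 : z ^ (Q : Subgroup X).index = 1 := by
    have h0 := hV z
    rw [h2] at h0
    exact congrArg Subtype.val h0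
  obtain ⟨k, hk⟩ := Q.2 ⟨z, hz⟩
  have hk' : z ^ p ^ k = 1 := by simpa using congrArg Subtype.val hk
  have hd1 : orderOf z ∣ (Q : Subgroup X).index := orderOf_dvd_of_pow_eq_one h3
  have hcop : (orderOf z).Coprime p :=
    Nat.Coprime.coprime_dvd_left hd1
      ((Nat.Prime.coprime_iff_not_dvd Fact.out).mpr Q.not_dvd_index).symm
  exact eq_one_of_pow_of_coprime hk' hcop

/-- `O^p(O^p(G)) = O^p(G)`. -/
theorem pResidual_pResidual_top (p : ℕ) (G : Type*) [Group G] :
    Cfsg.pResidual p ↥(Cfsg.pResidual p G) = ⊤ := by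
  apply Subgroup.map_injective (Cfsg.pResidual p G).subtype_injective
  rw [← MonoidHom.range_eq_map, Subgroup.range_subtype]
  have h1 : (Cfsg.pResidual p ↥(Cfsg.pResidual p G)).map (Cfsg.pResidual p G).subtype =
      Subgroup.closure {x : G | x ∈ Cfsg.pResidual p G ∧ (orderOf x).Coprime p} := by
    conv_lhs => unfold Cfsg.pResidual
    rw [MonoidHom.map_closure]
    congr 1
    ext x
    constructor
    · rintro ⟨y, hy, rfl⟩
      refine ⟨y.2, ?_⟩
      have h1 : Nat.Coprime (orderOf y) p := hy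
      rwa [← Subgroup.orderOf_coe] at h1
    · rintro ⟨hx, hc⟩
      refine ⟨⟨x, hx⟩, ?_, rfl⟩
      show Nat.Coprime (orderOf (⟨x, hx⟩ : ↥(Cfsg.pResidual p G))) p
      rw [Subgroup.orderOf_mk]; exact hc
  rw [h1]
  apply le_antisymm
  · rw [Subgroup.closure_le]
    rintro x ⟨hx, -⟩
    exact hx
  · conv_lhs => unfold Cfsg.pResidual
    apply Subgroup.closure_mono
    intro x hx
    exact ⟨Subgroup.subset_closure hx, hx⟩

/-- Relative Schur–Zassenhaus existence for a normal Sylow `p`-subgroup `Q` of `Y`. -/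
theorem exists_rel_complement {G : Type*} [Group G] [Finite G] {p : ℕ} [Fact p.Prime]
    (Q Y : Subgroup G) (hQY : Q ≤ Y) (hYn : Y ≤ Subgroup.normalizer (Q : Set G))
    (hQp : IsPGroup p Q) (hidx : ¬ p ∣ Q.relIndex Y) :
    ∃ T : Subgroup G, T ≤ Y ∧ Q ⊓ T = ⊥ ∧ (∀ y ∈ Y, ∃ q ∈ Q, ∃ t ∈ T, y = q * t) ∧
      (Nat.card Q).Coprime (Nat.card T) := by
  haveI : (Q.subgroupOf Y).Normal := Subgroup.normal_subgroupOf_of_le_normalizer hYn
  have hc1 : Nat.card (Q.subgroupOf Y) = Nat.card Q :=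
    Nat.card_congr (Subgroup.subgroupOfEquivOfLe hQY).toEquiv
  obtain ⟨k, hk⟩ := IsPGroup.iff_card.mp hQp
  have hcop : (Nat.card (Q.subgroupOf Y)).Coprime (Q.subgroupOf Y).index := by
    rw [hc1, hk]
    exact Nat.Coprime.pow_left k ((Nat.Prime.coprime_iff_not_dvd Fact.out).mpr hidx)
  obtain ⟨T₀, hT₀⟩ := Subgroup.exists_right_complement'_of_coprime hcop
  refine ⟨T₀.map Y.subtype, ?_, ?_, ?_, ?_⟩
  · rintro _ ⟨x, -, rfl⟩; exact x.2
  · rw [eq_bot_iff]
    rintro y ⟨hyQ, x, hx, rfl⟩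
    have h1 : x ∈ Q.subgroupOf Y ⊓ T₀ := ⟨hyQ, hx⟩
    rw [disjoint_iff.mp hT₀.disjoint, Subgroup.mem_bot] at h1
    rw [Subgroup.mem_bot, h1]; rfl
  · intro y hy
    obtain ⟨⟨⟨a, ha⟩, ⟨t, ht⟩⟩, hat, -⟩ := hT₀.existsUnique ⟨y, hy⟩
    simp only at hat
    refine ⟨(a : G), ha, (t : G), ⟨t, ht, rfl⟩, ?_⟩
    have := congrArg Subtype.val hat
    simpa using this.symm
  · rw [Subgroup.card_map_of_injective Y.subtype_injective, ← hT₀.symm.index_eq_card, ← hc1]
    exact hcop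

end Cfsg.Agent.Helper6
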