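import Mathlib
import Cfsg.Prelude.Def_SolvableStructure
import Cfsg.Agent.Helper1.Supersolvable2
import Cfsg.Agent.Helper3.SchurZ
import Cfsg.Agent.Lead.Hall
import Cfsg.Agent.Helper6.HallNilp

set_option autoImplicit false

namespace Cfsg.Agent.Helper6

universe u

/-- In a finite supersolvable group the Sylow subgroups for the largest prime divisor are
normal. -/
theorem normal_sylow_largest : ∀ (n : ℕ) (G : Type u) [Group G] [Finite G], Nat.card G = n →
    Cfsg.IsSupersolvable G → ∀ (p : ℕ) [Fact p.Prime], p ∣ Nat.card G →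
    (∀ q : ℕ, q.Prime → q ∣ Nat.card G → q ≤ p) → ∀ P : Sylow p G, (P : Subgroup G).Normal := by
  intro n
  induction n using Nat.strong_induction_on with
  | _ n ih =>
    intro G _ _ hn hG p _ hpdvd hmax P
    have hp : p.Prime := Fact.out
    suffices hS : ∃ S : Subgroup G, S.Normal ∧ IsPGroup p S ∧ ¬ p ∣ S.index by
      obtain ⟨S, hSn, hSp, hSi⟩ := hS
      obtain ⟨g, hg⟩ := MulAction.exists_smul_eq G (hSp.toSylow hSi) P
      haveI : ((hSp.toSylow hSi : Sylow p G) : Subgroup G).Normal := by
        rw [IsPGroup.toSylow_coe]; exact hSn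
      rw [Sylow.smul_eq_of_normal] at hg
      rw [← hg]
      infer_instance
    haveI : Nontrivial G := by
      rw [← Finite.one_lt_card_iff_nontrivial]
      exact lt_of_lt_of_le hp.one_lt (Nat.le_of_dvd Nat.card_pos hpdvd)
    obtain ⟨N, hNn, hNq⟩ := Cfsg.Agent.Helper1.exists_normal_prime_card hG
    haveI := hNn
    have hcard : Nat.card G = Nat.card (G ⧸ N) * Nat.card N :=
      Subgroup.card_eq_card_quotient_mul_card_subgroup N
    have hqle : Nat.card N ≤ p := hmax _ hNq (Dvd.intro_left _ hcard.symm)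
    have hlt : Nat.card (G ⧸ N) < n := by
      rw [← hn]; exact Cfsg.Agent.Helper1.card_quotient_lt N hNq.one_lt
    have hGq : Cfsg.IsSupersolvable (G ⧸ N) :=
      Cfsg.Agent.Helper1.isSupersolvable_of_surjective (QuotientGroup.mk' N)
        (QuotientGroup.mk'_surjective N) hG
    by_cases hpq : p ∣ Nat.card (G ⧸ N)
    · have hmax' : ∀ q : ℕ, q.Prime → q ∣ Nat.card (G ⧸ N) → q ≤ p := fun q hq hqd =>
        hmax q hq (hcard ▸ Dvd.dvd.mul_right hqd _)
      obtain ⟨P'⟩ : Nonempty (Sylow p (G ⧸ N)) := inferInstance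
      have hP'n := ih _ hlt (G ⧸ N) rfl hGq p hpq hmax' P'
      obtain ⟨M, hMdef⟩ : ∃ M : Subgroup G,
          M = (P' : Subgroup (G ⧸ N)).comap (QuotientGroup.mk' N) := ⟨_, rfl⟩
      haveI hMn : M.Normal := by rw [hMdef]; exact hP'n.comap _
      have hMcard : Nat.card M = Nat.card (P' : Subgroup (G ⧸ N)) * Nat.card N := by
        rw [hMdef]; exact Cfsg.Agent.Lead.card_comap_mk' N _
      have hMidx : ¬ p ∣ M.index := by
        rw [hMdef, Subgroup.index_comap_of_surjective _ (QuotientGroup.mk'_surjective N)]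
        exact P'.not_dvd_index
      obtain ⟨a, ha⟩ := IsPGroup.iff_card.mp P'.isPGroup'
      by_cases hqp : Nat.card N = p
      · refine ⟨M, hMn, IsPGroup.of_card (n := a + 1) ?_, hMidx⟩
        rw [hMcard, ha, hqp, pow_succ]
      · have hqlt : Nat.card N < p := lt_of_le_of_ne hqle hqp
        obtain ⟨P₀⟩ : Nonempty (Sylow p M) := inferInstance
        have hP₀idx : (P₀ : Subgroup M).index ∣ Nat.card N := by
          have h1 := Subgroup.card_mul_index (P₀ : Subgroup M)
          rw [hMcard, ha] at h1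
          have h2 : p ^ a ∣ Nat.card (P₀ : Subgroup M) * (P₀ : Subgroup M).index :=
            Dvd.intro _ h1.symm
          have h3 : Nat.Coprime (p ^ a) (P₀ : Subgroup M).index :=
            Nat.Coprime.pow_left a ((Nat.Prime.coprime_iff_not_dvd hp).mpr P₀.not_dvd_index)
          obtain ⟨c, hc⟩ := h3.dvd_of_dvd_mul_right h2
          rw [hc, mul_assoc] at h1
          have h4 : c * (P₀ : Subgroup M).index = Nat.card N :=
            Nat.eq_of_mul_eq_mul_left (pow_pos hp.pos a) h1
          exact Dvd.intro_left _ h4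
        have hnum : Nat.card (Sylow p M) = 1 := by
          have h1 : Nat.card (Sylow p M) ∣ Nat.card N :=
            dvd_trans (Sylow.card_dvd_index P₀) hP₀idx
          have h2 : Nat.card (Sylow p M) ≡ 1 [MOD p] := card_sylow_modEq_one p M
          rcases (Nat.dvd_prime hNq).mp h1 with h3 | h3
          · exact h3
          · exfalso
            rw [h3] at h2
            have h4 : Nat.card N % p = 1 % p := h2
            rw [Nat.mod_eq_of_lt hqlt, Nat.mod_eq_of_lt hp.one_lt] at h4
            exact hNq.one_lt.ne' h4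
        haveI : Subsingleton (Sylow p M) := (Nat.card_eq_one_iff_unique.mp hnum).1
        haveI hP₀c : (P₀ : Subgroup M).Characteristic := Sylow.characteristic_of_subsingleton P₀
        refine ⟨(P₀ : Subgroup M).map M.subtype, inferInstance, P₀.isPGroup'.map _, ?_⟩
        rw [Subgroup.index_map_subtype]
        intro hdvd
        rcases (Nat.Prime.dvd_mul hp).mp hdvd with h1 | h1
        · exact P₀.not_dvd_index h1
        · exact hMidx h1
    · have hpN : p ∣ Nat.card N := by
        rw [hcard] at hpdvd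
        rcases (Nat.Prime.dvd_mul hp).mp hpdvd with h1 | h1
        · exact absurd h1 hpq
        · exact h1
      have hpeq : p = Nat.card N := (Nat.prime_dvd_prime_iff_eq hp hNq).mp hpN
      refine ⟨N, hNn, IsPGroup.of_card (n := 1) (by rw [pow_one]; exact hpeq.symm), ?_⟩
      rw [Subgroup.index_eq_card]; exact hpq

/-- Conjugacy of supersolvable Hall subgroups of equal order sharing a nontrivial normal
`p`-subgroup `Q`, given the result for smaller orders. -/
theorem ss_hall_conj_aligned {G : Type u} [Group G] [Finite G] (H K Q : Subgroup G)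
    (ih : ∀ (G' : Type u) [Group G'] [Finite G'] (H' K' : Subgroup G'),
      Nat.card H' < Nat.card H → Cfsg.IsSupersolvable H' → Cfsg.IsSupersolvable K' →
      Nat.card H' = Nat.card K' → (Nat.card H').Coprime H'.index →
      ∃ x : G', H'.map (MulAut.conj x).toMonoidHom = K')
    (hH : Cfsg.IsSupersolvable H) (hK : Cfsg.IsSupersolvable K)
    (hcard : Nat.card H = Nat.card K) (hHall : (Nat.card H).Coprime H.index)
    (hQH : Q ≤ H) (hQK : Q ≤ K) (hQne : Q ≠ ⊥)
    (hHN : H ≤ Subgroup.normalizer (Q : Set G)) (hKN : K ≤ Subgroup.normalizer (Q : Set G)) :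
    ∃ x : G, H.map (MulAut.conj x).toMonoidHom = K := by
  obtain ⟨N, hNdef⟩ : ∃ N : Subgroup G, N = Subgroup.normalizer (Q : Set G) := ⟨_, rfl⟩
  rw [← hNdef] at hHN hKN
  have hQN : Q ≤ N := hQH.trans hHN
  haveI hQ'n : (Q.subgroupOf N).Normal := by
    rw [hNdef]; infer_instance
  have hπ : Function.Surjective (QuotientGroup.mk' (Q.subgroupOf N)) :=
    QuotientGroup.mk'_surjective _
  have hker : (QuotientGroup.mk' (Q.subgroupOf N)).ker = Q.subgroupOf N := QuotientGroup.ker_mk' _
  have hQ'H : Q.subgroupOf N ≤ H.subgroupOf N := fun x hx => hQH hx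
  have hQ'K : Q.subgroupOf N ≤ K.subgroupOf N := fun x hx => hQK hx
  have hQ'card : Nat.card (Q.subgroupOf N) = Nat.card Q :=
    Cfsg.Agent.Helper3.card_subgroupOf_of_le hQN
  have hQcard : 1 < Nat.card Q := (Subgroup.one_lt_card_iff_ne_bot Q).mpr hQne
  have hcH := Cfsg.Agent.Lead.card_map_mk'_mul (Q.subgroupOf N) (H.subgroupOf N) hQ'H
  have hcK := Cfsg.Agent.Lead.card_map_mk'_mul (Q.subgroupOf N) (K.subgroupOf N) hQ'K
  rw [hQ'card, Cfsg.Agent.Helper3.card_subgroupOf_of_le hHN] at hcH
  rw [hQ'card, Cfsg.Agent.Helper3.card_subgroupOf_of_le hKN] at hcK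
  have hlt : Nat.card ((H.subgroupOf N).map (QuotientGroup.mk' (Q.subgroupOf N))) < Nat.card H := by
    have hpos : 0 < Nat.card ((H.subgroupOf N).map (QuotientGroup.mk' (Q.subgroupOf N))) :=
      Nat.card_pos
    nlinarith
  have hss : ∀ X : Subgroup G, X ≤ N → Cfsg.IsSupersolvable X →
      Cfsg.IsSupersolvable ((X.subgroupOf N).map (QuotientGroup.mk' (Q.subgroupOf N))) := by
    intro X hXN hX
    have h1 : Cfsg.IsSupersolvable (X.subgroupOf N) :=
      Cfsg.Agent.Helper1.isSupersolvable_of_surjective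
        (Subgroup.subgroupOfEquivOfLe hXN).symm.toMonoidHom
        (Subgroup.subgroupOfEquivOfLe hXN).symm.surjective hX
    exact Cfsg.Agent.Helper1.isSupersolvable_of_surjective
      ((QuotientGroup.mk' (Q.subgroupOf N)).subgroupMap (X.subgroupOf N))
      (MonoidHom.subgroupMap_surjective _ _) h1
  have hcardeq : Nat.card ((H.subgroupOf N).map (QuotientGroup.mk' (Q.subgroupOf N))) =
      Nat.card ((K.subgroupOf N).map (QuotientGroup.mk' (Q.subgroupOf N))) := by
    have h1 : Nat.card ((H.subgroupOf N).map (QuotientGroup.mk' (Q.subgroupOf N))) * Nat.card Q =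
        Nat.card ((K.subgroupOf N).map (QuotientGroup.mk' (Q.subgroupOf N))) * Nat.card Q := by
      rw [hcH, hcK, hcard]
    exact Nat.eq_of_mul_eq_mul_right (by omega) h1
  have hHall' : (Nat.card ((H.subgroupOf N).map (QuotientGroup.mk' (Q.subgroupOf N)))).Coprime
      ((H.subgroupOf N).map (QuotientGroup.mk' (Q.subgroupOf N))).index := by
    have h1 : ((H.subgroupOf N).map (QuotientGroup.mk' (Q.subgroupOf N))).index ∣ H.index := by
      rw [Subgroup.index_map_eq _ hπ (by rw [hker]; exact hQ'H)]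
      exact Subgroup.relIndex_dvd_index_of_le hHN
    have h2 : Nat.card ((H.subgroupOf N).map (QuotientGroup.mk' (Q.subgroupOf N))) ∣ Nat.card H :=
      Dvd.intro _ hcH
    exact Nat.Coprime.coprime_dvd_left h2 (Nat.Coprime.coprime_dvd_right h1 hHall)
  obtain ⟨x', hx'⟩ := ih _ _ _ hlt (hss H hHN hH) (hss K hKN hK) hcardeq hHall'
  obtain ⟨x, rfl⟩ := hπ x'
  have hpb := Cfsg.Agent.Helper3.conj_map_pullback (QuotientGroup.mk' (Q.subgroupOf N)) x
    (H.subgroupOf N) (K.subgroupOf N) hx'
  rw [hker] at hpb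
  have hQ'H' : Q.subgroupOf N ≤ (H.subgroupOf N).map (MulAut.conj x).toMonoidHom := by
    intro y hy
    refine ⟨x⁻¹ * y * x, hQ'H ?_, ?_⟩
    · have := hQ'n.conj_mem y hy x⁻¹
      simpa using this
    · simp [mul_assoc]
  rw [sup_eq_left.mpr hQ'H', sup_eq_left.mpr hQ'K] at hpb
  exact ⟨(x : G), Cfsg.Agent.Helper3.conj_of_subgroupOf N H K hHN hKN x hpb⟩

/-- Supersolvable Hall subgroups of the same order are conjugate. -/
theorem ss_hall_conj_aux : ∀ (n : ℕ) (G : Type u) [Group G] [Finite G] (H K : Subgroup G),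
    Nat.card H = n → Cfsg.IsSupersolvable H → Cfsg.IsSupersolvable K →
    Nat.card H = Nat.card K → (Nat.card H).Coprime H.index →
    ∃ x : G, H.map (MulAut.conj x).toMonoidHom = K := by
  intro n
  induction n using Nat.strong_induction_on with
  | _ n ih =>
    intro G _ _ H K hn hH hK hcard hHall
    by_cases h1 : Nat.card H = 1
    · have hHb : H = ⊥ := Subgroup.card_eq_one.mp h1
      have hKb : K = ⊥ := Subgroup.card_eq_one.mp (hcard ▸ h1)
      refine ⟨1, ?_⟩
      rw [hHb, hKb, Subgroup.map_bot]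
    have hne : (Nat.card H).primeFactors.Nonempty := by
      rw [Nat.nonempty_primeFactors]
      have : 0 < Nat.card H := Nat.card_pos
      omega
    obtain ⟨p, hpdef⟩ : ∃ p : ℕ, p = (Nat.card H).primeFactors.max' hne := ⟨_, rfl⟩
    have hpmem : p ∈ (Nat.card H).primeFactors := by rw [hpdef]; exact Finset.max'_mem _ _
    have hp : p.Prime := Nat.prime_of_mem_primeFactors hpmem
    have hpdvd : p ∣ Nat.card H := Nat.dvd_of_mem_primeFactors hpmem
    have hmax : ∀ q : ℕ, q.Prime → q ∣ Nat.card H → q ≤ p := by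
      intro q hq hqd
      rw [hpdef]
      exact Finset.le_max' _ _ (Nat.mem_primeFactors.mpr ⟨hq, hqd, Nat.card_pos.ne'⟩)
    haveI : Fact p.Prime := ⟨hp⟩
    obtain ⟨P₀⟩ : Nonempty (Sylow p H) := inferInstance
    obtain ⟨Q₀⟩ : Nonempty (Sylow p K) := inferInstance
    have hP₀n : (P₀ : Subgroup H).Normal := normal_sylow_largest _ H rfl hH p hpdvd hmax P₀
    have hQ₀n : (Q₀ : Subgroup K).Normal :=
      normal_sylow_largest _ K rfl hK p (hcard ▸ hpdvd) (fun q hq hqd => hmax q hq (hcard ▸ hqd)) Q₀
    have hidx : K.index = H.index := by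
      have h2 := Subgroup.card_mul_index H
      have h3 := Subgroup.card_mul_index K
      rw [← hcard] at h3
      exact Nat.eq_of_mul_eq_mul_left Nat.card_pos (h3.trans h2.symm)
    have hKHall : (Nat.card K).Coprime K.index := by rw [← hcard, hidx]; exact hHall
    obtain ⟨S, hS⟩ := exists_sylow_of_hall H hHall hpdvd P₀
    obtain ⟨T, hT⟩ := exists_sylow_of_hall K hKHall (hcard ▸ hpdvd) Q₀
    obtain ⟨g, hg⟩ := MulAction.exists_smul_eq G S T
    have hgS : (S : Subgroup G).map (MulAut.conj g).toMonoidHom = (T : Subgroup G) := by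
      rw [← hg]; rfl
    have hHnorm : H ≤ Subgroup.normalizer ((S : Subgroup G) : Set G) := by
      rw [hS]
      have h2 : ((P₀ : Subgroup H).map H.subtype).subgroupOf H = (P₀ : Subgroup H) :=
        Subgroup.comap_map_eq_self_of_injective H.subtype_injective _
      apply (Subgroup.normal_subgroupOf_iff_le_normalizer (Subgroup.map_subtype_le _)).mp
      rw [h2]; exact hP₀n
    have hKnorm : K ≤ Subgroup.normalizer ((T : Subgroup G) : Set G) := by
      rw [hT]
      have h2 : ((Q₀ : Subgroup K).map K.subtype).subgroupOf K = (Q₀ : Subgroup K) :=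
        Subgroup.comap_map_eq_self_of_injective K.subtype_injective _
      apply (Subgroup.normal_subgroupOf_iff_le_normalizer (Subgroup.map_subtype_le _)).mp
      rw [h2]; exact hQ₀n
    have hSH : (S : Subgroup G) ≤ H := by rw [hS]; exact Subgroup.map_subtype_le _
    have hTK : (T : Subgroup G) ≤ K := by rw [hT]; exact Subgroup.map_subtype_le _
    have hTne : (T : Subgroup G) ≠ ⊥ := by
      apply Sylow.ne_bot_of_dvd_card
      exact dvd_trans hpdvd (Subgroup.card_subgroup_dvd_card H)
    -- transport H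
    obtain ⟨H', hH'def⟩ : ∃ H' : Subgroup G, H' = H.map (MulAut.conj g).toMonoidHom := ⟨_, rfl⟩
    have hH'card : Nat.card H' = Nat.card H := by
      rw [hH'def, Subgroup.card_map_of_injective (MulAut.conj g).injective]
    have hH'ss : Cfsg.IsSupersolvable H' := by
      rw [hH'def]
      exact Cfsg.Agent.Helper1.isSupersolvable_of_surjective
        ((MulAut.conj g).toMonoidHom.subgroupMap H) (MonoidHom.subgroupMap_surjective _ _) hH
    have hH'Hall : (Nat.card H').Coprime H'.index := by
      rw [hH'card, hH'def, Subgroup.index_map_of_bijective (MulAut.conj g).bijective H]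
      exact hHall
    have hTH' : (T : Subgroup G) ≤ H' := by
      rw [← hgS, hH'def]; exact Subgroup.map_mono hSH
    have hH'norm : H' ≤ Subgroup.normalizer ((T : Subgroup G) : Set G) := by
      rw [← hgS, hH'def]
      exact Cfsg.Agent.Helper3.conj_le_normalizer_conj H (S : Subgroup G) g hHnorm
    obtain ⟨x, hx⟩ := ss_hall_conj_aligned H' K (T : Subgroup G)
      (fun G' _ _ A B hlt hA hB hAB hAH =>
        ih (Nat.card A) (by rw [← hn, ← hH'card]; exact hlt) G' A B rfl hA hB hAB hAH)
      hH'ss hK (hH'card.trans hcard) hH'Hall hTH' hTK hTne hH'norm hKnorm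
    refine ⟨x * g, ?_⟩
    rw [← hx, hH'def, Subgroup.map_map]
    congr 1
    ext y
    simp [mul_assoc]

end Cfsg.Agent.Helper6
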