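import Mathlib
import Cfsg.Agent.Helper6.SupersolvHall

set_option autoImplicit false

namespace Cfsg.Agent.Helper6

universe u

/-- A finite supersolvable group has a normal subgroup of order `p`, where `p` is the largest
prime divisor of its order. -/
theorem exists_normal_card_largest : ∀ (n : ℕ) (G : Type u) [Group G] [Finite G],
    Nat.card G = n → Cfsg.IsSupersolvable G → ∀ (p : ℕ), p.Prime → p ∣ Nat.card G →
    (∀ q : ℕ, q.Prime → q ∣ Nat.card G → q ≤ p) →
    ∃ N : Subgroup G, N.Normal ∧ Nat.card N = p := by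
  intro n
  induction n using Nat.strong_induction_on with
  | _ n ih =>
    intro G _ _ hn hG p hp hpdvd hmax
    haveI : Fact p.Prime := ⟨hp⟩
    haveI : Nontrivial G := by
      rw [← Finite.one_lt_card_iff_nontrivial]
      exact lt_of_lt_of_le hp.one_lt (Nat.le_of_dvd Nat.card_pos hpdvd)
    obtain ⟨N, hNn, hNq⟩ := Cfsg.Agent.Helper1.exists_normal_prime_card hG
    haveI := hNn
    by_cases hqp : Nat.card N = p
    · exact ⟨N, hNn, hqp⟩
    have hcard : Nat.card G = Nat.card (G ⧸ N) * Nat.card N :=
      Subgroup.card_eq_card_quotient_mul_card_subgroup N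
    have hqle : Nat.card N ≤ p := hmax _ hNq (Dvd.intro_left _ hcard.symm)
    have hqlt : Nat.card N < p := lt_of_le_of_ne hqle hqp
    have hlt : Nat.card (G ⧸ N) < n := by
      rw [← hn]; exact Cfsg.Agent.Helper1.card_quotient_lt N hNq.one_lt
    have hGq : Cfsg.IsSupersolvable (G ⧸ N) :=
      Cfsg.Agent.Helper1.isSupersolvable_of_surjective (QuotientGroup.mk' N)
        (QuotientGroup.mk'_surjective N) hG
    have hpN : ¬ p ∣ Nat.card N := fun h => hqp ((Nat.prime_dvd_prime_iff_eq hp hNq).mp h).symm
    have hpq : p ∣ Nat.card (G ⧸ N) := by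
      rw [hcard] at hpdvd
      rcases (Nat.Prime.dvd_mul hp).mp hpdvd with h1 | h1
      · exact h1
      · exact absurd h1 hpN
    have hmax' : ∀ q : ℕ, q.Prime → q ∣ Nat.card (G ⧸ N) → q ≤ p := fun q hq hqd =>
      hmax q hq (hcard ▸ Dvd.dvd.mul_right hqd _)
    obtain ⟨M', hM'n, hM'c⟩ := ih _ hlt (G ⧸ N) rfl hGq p hp hpq hmax'
    obtain ⟨M, hMdef⟩ : ∃ M : Subgroup G, M = M'.comap (QuotientGroup.mk' N) := ⟨_, rfl⟩
    haveI hMn : M.Normal := by rw [hMdef]; exact hM'n.comap _
    have hMcard : Nat.card M = p * Nat.card N := by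
      rw [hMdef, Cfsg.Agent.Lead.card_comap_mk' N _, hM'c]
    obtain ⟨P₀⟩ : Nonempty (Sylow p M) := inferInstance
    have hP₀card : Nat.card (P₀ : Subgroup M) = p := by
      rw [Sylow.card_eq_multiplicity, hMcard, Nat.factorization_mul hp.ne_zero hNq.ne_zero]
      simp [hp.factorization_self, Nat.factorization_eq_zero_of_not_dvd hpN]
    have hP₀idx : (P₀ : Subgroup M).index = Nat.card N := by
      have h1 := Subgroup.card_mul_index (P₀ : Subgroup M)
      rw [hP₀card, hMcard] at h1
      exact Nat.eq_of_mul_eq_mul_left hp.pos h1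
    have hnum : Nat.card (Sylow p M) = 1 := by
      have h1 : Nat.card (Sylow p M) ∣ Nat.card N := hP₀idx ▸ Sylow.card_dvd_index P₀
      have h2 : Nat.card (Sylow p M) ≡ 1 [MOD p] := card_sylow_modEq_one p M
      rcases (Nat.dvd_prime hNq).mp h1 with h3 | h3
      · exact h3
      · exfalso
        rw [h3] at h2
        have h4 : Nat.card N % p = 1 % p := h2
        rw [Nat.mod_eq_of_lt hqlt, Nat.mod_eq_of_lt hp.one_lt] at h4
        exact hNq.one_lt.ne' h4
    haveI : Subsingleton (Sylow p M) := (Nat.card_eq_one_iff_unique.mp hnum).1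
    haveI hP₀c : (P₀ : Subgroup M).Characteristic := Sylow.characteristic_of_subsingleton P₀
    refine ⟨(P₀ : Subgroup M).map M.subtype, inferInstance, ?_⟩
    rw [Subgroup.card_map_of_injective M.subtype_injective, hP₀card]

/-- A finite supersolvable group has a normal series with factors of prime order, the primes
non-increasing going up. -/
theorem ss_chain_aux : ∀ (n : ℕ) (G : Type u) [Group G] [Finite G], Nat.card G = n →
    Cfsg.IsSupersolvable G →
    ∃ (m : ℕ) (H : Fin (m + 1) → Subgroup G), H 0 = ⊥ ∧ H (Fin.last m) = ⊤ ∧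
      (∀ i, (H i).Normal) ∧
      (∀ i : Fin m, H i.castSucc ≤ H i.succ ∧ ((H i.castSucc).relIndex (H i.succ)).Prime) ∧
      ∀ i j : Fin m, i ≤ j →
        (H j.castSucc).relIndex (H j.succ) ≤ (H i.castSucc).relIndex (H i.succ) := by
  intro n
  induction n using Nat.strong_induction_on with
  | _ n ih =>
    intro G _ _ hn hG
    by_cases htriv : Subsingleton G
    · refine ⟨0, fun _ => ⊥, rfl, ?_, ?_, ?_, ?_⟩
      · show (⊥ : Subgroup G) = ⊤
        rw [eq_comm, eq_bot_iff]
        intro x _
        rw [Subsingleton.elim x 1]; exact Subgroup.one_mem _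
      · intro i; infer_instance
      · intro i; exact i.elim0
      · intro i; exact i.elim0
    · haveI : Nontrivial G := not_subsingleton_iff_nontrivial.mp htriv
      have hne : (Nat.card G).primeFactors.Nonempty := by
        rw [Nat.nonempty_primeFactors]; exact Finite.one_lt_card
      obtain ⟨p, hpdef⟩ : ∃ p : ℕ, p = (Nat.card G).primeFactors.max' hne := ⟨_, rfl⟩
      have hpmem : p ∈ (Nat.card G).primeFactors := by rw [hpdef]; exact Finset.max'_mem _ _
      have hp : p.Prime := Nat.prime_of_mem_primeFactors hpmem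
      have hpdvd : p ∣ Nat.card G := Nat.dvd_of_mem_primeFactors hpmem
      have hmax : ∀ q : ℕ, q.Prime → q ∣ Nat.card G → q ≤ p := by
        intro q hq hqd
        rw [hpdef]
        exact Finset.le_max' _ _ (Nat.mem_primeFactors.mpr ⟨hq, hqd, Nat.card_pos.ne'⟩)
      obtain ⟨N, hNn, hNc⟩ := exists_normal_card_largest _ G rfl hG p hp hpdvd hmax
      haveI := hNn
      have hcard : Nat.card G = Nat.card (G ⧸ N) * Nat.card N :=
        Subgroup.card_eq_card_quotient_mul_card_subgroup N
      have hlt : Nat.card (G ⧸ N) < n := by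
        rw [← hn]; exact Cfsg.Agent.Helper1.card_quotient_lt N (by rw [hNc]; exact hp.one_lt)
      have hGq : Cfsg.IsSupersolvable (G ⧸ N) :=
        Cfsg.Agent.Helper1.isSupersolvable_of_surjective (QuotientGroup.mk' N)
          (QuotientGroup.mk'_surjective N) hG
      obtain ⟨m, H', h0, hlast, hnorm, hstep, hmono⟩ := ih _ hlt (G ⧸ N) rfl hGq
      have hsurj := QuotientGroup.mk'_surjective N
      obtain ⟨Hc, hHc0, hHcs⟩ : ∃ Hc : Fin (m + 2) → Subgroup G, Hc 0 = ⊥ ∧
          ∀ k : Fin (m + 1), Hc k.succ = (H' k).comap (QuotientGroup.mk' N) :=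
        ⟨fun i => Fin.cases ⊥ (fun k => (H' k).comap (QuotientGroup.mk' N)) i, rfl, fun k => rfl⟩
      have hr0 : (Hc (0 : Fin (m + 1)).castSucc).relIndex (Hc (0 : Fin (m + 1)).succ) = p := by
        rw [Fin.castSucc_zero, hHc0, hHcs, Subgroup.relIndex_bot_left, h0]
        have : (⊥ : Subgroup (G ⧸ N)).comap (QuotientGroup.mk' N) = N := QuotientGroup.ker_mk' N
        rw [this, hNc]
      have hrs : ∀ k : Fin m, (Hc k.succ.castSucc).relIndex (Hc k.succ.succ) =
          (H' k.castSucc).relIndex (H' k.succ) := by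
        intro k
        rw [Fin.castSucc_succ, hHcs, hHcs, Subgroup.relIndex_comap,
          Subgroup.map_comap_eq_self_of_surjective hsurj]
      refine ⟨m + 1, Hc, hHc0, ?_, ?_, ?_, ?_⟩
      · rw [← Fin.succ_last, hHcs, hlast, Subgroup.comap_top]
      · intro i
        rcases Fin.eq_zero_or_eq_succ i with rfl | ⟨k, rfl⟩
        · rw [hHc0]; infer_instance
        · rw [hHcs]; exact (hnorm k).comap _
      · intro i
        rcases Fin.eq_zero_or_eq_succ i with rfl | ⟨k, rfl⟩
        · refine ⟨?_, ?_⟩
          · rw [Fin.castSucc_zero, hHc0]; exact bot_le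
          · rw [hr0]; exact hp
        · refine ⟨?_, ?_⟩
          · rw [Fin.castSucc_succ, hHcs, hHcs]
            exact Subgroup.comap_mono (hstep k).1
          · rw [hrs]; exact (hstep k).2
      · intro i j hij
        rcases Fin.eq_zero_or_eq_succ i with rfl | ⟨i', rfl⟩
        · rw [hr0]
          rcases Fin.eq_zero_or_eq_succ j with rfl | ⟨j', rfl⟩
          · rw [hr0]
          · rw [hrs]
            apply hmax _ (hstep j').2
            rw [hcard]
            exact Dvd.dvd.mul_right (dvd_trans (Subgroup.relIndex_dvd_card _ _)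
              (Subgroup.card_subgroup_dvd_card _)) _
        · rcases Fin.eq_zero_or_eq_succ j with rfl | ⟨j', rfl⟩
          · exfalso
            have : i'.succ = 0 := le_antisymm hij (Fin.zero_le _)
            exact Fin.succ_ne_zero i' this
          · rw [hrs, hrs]
            exact hmono i' j' (Fin.succ_le_succ_iff.mp hij)

end Cfsg.Agent.Helper6
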